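import Mathlib

/-!
# Zeros of quadratic maps on 2-groups (a Chevalley–Warning type count)

If `G` is a finite 2-group with a central elementary abelian subgroup `W` of order 4
containing all squares and `256 ∣ |G|`, then `G` has an involution outside `W`.
-/

set_option autoImplicit false

namespace Cfsg.Agent.Lib.Helper64.QuadZero

open scoped Pointwise

variable {G : Type*} [Group G]

/-- The difference operator. -/
def Dlt (a : G) (f : G → ZMod 2) : G → ZMod 2 := fun x => f (x * a) + f x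

/-- `Deg k f`: all `k`-fold differences of `f` vanish. -/
def Deg : ℕ → (G → ZMod 2) → Prop
  | 0, f => f = 0
  | k + 1, f => ∀ a : G, Deg k (Dlt a f)

theorem Dlt_apply (a : G) (f : G → ZMod 2) (x : G) : Dlt a f x = f (x * a) + f x := rfl

theorem Dlt_zero (a : G) : Dlt a (0 : G → ZMod 2) = 0 := by
  funext x; simp [Dlt]

theorem Dlt_add (a : G) (f g : G → ZMod 2) : Dlt a (f + g) = Dlt a f + Dlt a g := by
  funext x; simp only [Dlt, Pi.add_apply]; ring

theorem Dlt_mul (a : G) (f g : G → ZMod 2) :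
    Dlt a (f * g) = Dlt a f * g + Dlt a f * Dlt a g + f * Dlt a g := by
  funext x
  simp only [Dlt, Pi.add_apply, Pi.mul_apply]
  generalize f (x * a) = p
  generalize f x = q
  generalize g (x * a) = r
  generalize g x = s
  revert p q r s
  decide

theorem Deg_zero_fun : ∀ k : ℕ, Deg k (0 : G → ZMod 2)
  | 0 => rfl
  | k + 1 => fun a => by rw [Dlt_zero]; exact Deg_zero_fun k

theorem Deg_succ : ∀ (k : ℕ) (f : G → ZMod 2), Deg k f → Deg (k + 1) f
  | 0, f, h => fun a => by
      have h0 : f = 0 := h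
      subst h0
      rw [Dlt_zero]; rfl
  | k + 1, f, h => fun a => Deg_succ k _ (h a)

theorem Deg_mono {k l : ℕ} (h : k ≤ l) (f : G → ZMod 2) (hf : Deg k f) : Deg l f := by
  induction h with
  | refl => exact hf
  | step _ ih => exact Deg_succ _ _ ih

theorem Deg_add : ∀ (k : ℕ) (f g : G → ZMod 2), Deg k f → Deg k g → Deg k (f + g)
  | 0, f, g, hf, hg => by
      have h1 : f = 0 := hf
      have h2 : g = 0 := hg
      subst h1 h2
      show (0 : G → ZMod 2) + 0 = 0
      simp
  | k + 1, f, g, hf, hg => fun a => by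
      rw [Dlt_add]; exact Deg_add k _ _ (hf a) (hg a)

theorem Deg_mul : ∀ (n k l : ℕ) (f g : G → ZMod 2), k + l ≤ n → Deg k f → Deg l g →
    Deg (k + l) (f * g) := by
  intro n
  induction n with
  | zero =>
    intro k l f g hkl hf hg
    have hk : k = 0 := by omega
    have hl : l = 0 := by omega
    subst hk hl
    have h1 : f = 0 := hf
    subst h1
    show (0 : G → ZMod 2) * g = 0
    simp
  | succ n ih =>
    intro k l f g hkl hf hg
    rcases k with _ | k
    · have h1 : f = 0 := hf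
      subst h1
      rw [zero_mul]; exact Deg_zero_fun _
    rcases l with _ | l
    · have h1 : g = 0 := hg
      subst h1
      rw [mul_zero]; exact Deg_zero_fun _
    show Deg ((k + 1 + l) + 1) (f * g)
    intro a
    rw [Dlt_mul]
    refine Deg_add _ _ _ (Deg_add _ _ _ ?_ ?_) ?_
    · exact Deg_mono (by omega) _ (ih k (l + 1) _ _ (by omega) (hf a) hg)
    · exact Deg_mono (by omega) _ (ih k l _ _ (by omega) (hf a) (hg a))
    · exact ih (k + 1) l _ _ (by omega) hf (hg a)

/-- The number of `x ∈ H` with `f x = 1`. -/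
noncomputable def Cnt (H : Subgroup G) (f : G → ZMod 2) : ℕ :=
  Set.ncard {x : G | x ∈ H ∧ f x = 1}

theorem dvd_Cnt [Finite G] (W H : Subgroup G) (hWH : W ≤ H) (F : G → ZMod 2)
    (hF : ∀ x, ∀ w ∈ W, F (x * w) = F x) : Nat.card W ∣ Cnt H F := by
  have hS : {x : G | x ∈ H ∧ F x = 1} * (W : Set G) = {x : G | x ∈ H ∧ F x = 1} := by
    ext y
    constructor
    · rintro ⟨x, ⟨hx, hfx⟩, w, hw, rfl⟩
      exact ⟨H.mul_mem hx (hWH hw), by rw [hF x w hw]; exact hfx⟩
    · intro hy
      exact ⟨y, hy, 1, W.one_mem, mul_one y⟩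
  have h := Subgroup.card_mul_eq_card_subgroup_mul_card_quotient W {x : G | x ∈ H ∧ F x = 1}
  rw [hS] at h
  unfold Cnt
  rw [← Nat.card_coe_set_eq, h]
  exact dvd_mul_right _ _

theorem mul_mem_iff_of_card_two [Finite G] (H K : Subgroup G) (hKH : K ≤ H)
    (h2 : Nat.card H = 2 * Nat.card K) :
    ∀ x ∈ H, ∀ y ∈ H, (x * y ∈ K ↔ (x ∈ K ↔ y ∈ K)) := by
  have hidx : (K.subgroupOf H).index = 2 := by
    have h1 := Subgroup.card_mul_index (K.subgroupOf H)
    rw [Nat.card_congr (Subgroup.subgroupOfEquivOfLe hKH).toEquiv, h2, mul_comm 2] at h1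
    exact Nat.eq_of_mul_eq_mul_left Nat.card_pos h1
  intro x hx y hy
  have h := Subgroup.mul_mem_iff_of_index_two hidx (a := ⟨x, hx⟩) (b := ⟨y, hy⟩)
  simpa [Subgroup.mem_subgroupOf] using h

theorem Cnt_split [Finite G] (H H' : Subgroup G) (a : G) (hH' : H' ≤ H) (ha : a ∈ H)
    (ha' : a ∉ H') (hidx : ∀ y ∈ H, y ∉ H' → y * a⁻¹ ∈ H') (f : G → ZMod 2) :
    Cnt H f = Cnt H' (Dlt a f) + 2 * Cnt H' (f * (1 + Dlt a f)) := by
  unfold Cnt
  set A : Set G := {x | x ∈ H' ∧ f x = 1} with hA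
  set B : Set G := {x | x ∈ H' ∧ f (x * a) = 1} with hB
  have h1 : {x : G | x ∈ H ∧ f x = 1} = A ∪ (fun x => x * a) '' B := by
    ext y
    constructor
    · rintro ⟨hy, hfy⟩
      by_cases hy' : y ∈ H'
      · exact Or.inl ⟨hy', hfy⟩
      · refine Or.inr ⟨y * a⁻¹, ⟨hidx y hy hy', ?_⟩, ?_⟩
        · rw [inv_mul_cancel_right]; exact hfy
        · simp
    · rintro (⟨hy, hfy⟩ | ⟨x, ⟨hx, hfx⟩, rfl⟩)
      · exact ⟨hH' hy, hfy⟩
      · exact ⟨H.mul_mem (hH' hx) ha, hfx⟩
  have hdisj : Disjoint A ((fun x => x * a) '' B) := by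
    rw [Set.disjoint_left]
    rintro y ⟨hy, _⟩ ⟨x, ⟨hx, _⟩, rfl⟩
    exact ha' ((Subgroup.mul_mem_cancel_left H' hx).mp hy)
  have e1 : Set.ncard {x : G | x ∈ H ∧ f x = 1} = A.ncard + B.ncard := by
    rw [h1, Set.ncard_union_eq hdisj (Set.toFinite _) (Set.toFinite _),
      Set.ncard_image_of_injective _ (mul_left_injective a)]
  have e2 : A.ncard + B.ncard = (A ∪ B).ncard + (A ∩ B).ncard :=
    (Set.ncard_union_add_ncard_inter A B (Set.toFinite _) (Set.toFinite _)).symm
  have h3 : A ∪ B = {x : G | x ∈ H' ∧ Dlt a f x = 1} ∪ (A ∩ B) := by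
    ext x
    simp only [hA, hB, Set.mem_union, Set.mem_ofPred_eq, Set.mem_inter_iff, Dlt_apply]
    generalize f (x * a) = q
    generalize f x = p
    by_cases hx : x ∈ H'
    · simp only [hx, true_and]
      revert p q
      decide
    · simp [hx]
  have hdisj2 : Disjoint {x : G | x ∈ H' ∧ Dlt a f x = 1} (A ∩ B) := by
    rw [Set.disjoint_left]
    rintro x ⟨_, h⟩ ⟨⟨_, hp⟩, ⟨_, hq⟩⟩
    rw [Dlt_apply, hp, hq] at h
    revert h
    decide
  have e3 : (A ∪ B).ncard = Set.ncard {x : G | x ∈ H' ∧ Dlt a f x = 1} + (A ∩ B).ncard := by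
    rw [h3, Set.ncard_union_eq hdisj2 (Set.toFinite _) (Set.toFinite _)]
  have h4 : A ∩ B = {x : G | x ∈ H' ∧ (f * (1 + Dlt a f)) x = 1} := by
    ext x
    simp only [hA, hB, Set.mem_ofPred_eq, Set.mem_inter_iff, Dlt_apply, Pi.mul_apply,
      Pi.add_apply, Pi.one_apply]
    generalize f (x * a) = q
    generalize f x = p
    by_cases hx : x ∈ H'
    · simp only [hx, true_and]
      revert p q
      decide
    · simp [hx]
  rw [e1, e2, e3, ← h4]
  ring

theorem Cnt_dvd [Finite G] (W : Subgroup G)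
    (hWc : ∀ w ∈ W, ∀ x : G, w * x = x * w) (i : ℕ) (hWi : Nat.card W = 2 ^ i) :
    ∀ (k : ℕ) (f : G → ZMod 2) (H : Subgroup G) (j : ℕ), Deg k f →
      (∀ x, ∀ w ∈ W, f (x * w) = f x) → W ≤ H → Nat.card H = 2 ^ j → k + i ≤ j →
      2 * 2 ^ i ∣ Cnt H f := by
  intro k
  induction k with
  | zero =>
    intro f H j hf _ _ _ _
    have h0 : f = 0 := hf
    subst h0
    have h1 : {x : G | x ∈ H ∧ (0 : G → ZMod 2) x = 1} = ∅ := by
      ext x; simp
    simp [Cnt]
  | succ k ih =>
    intro f H j hf hinv hWH hHj hkj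
    have : Fact (Nat.Prime 2) := ⟨Nat.prime_two⟩
    have hW' : Nat.card (W.subgroupOf H) = 2 ^ i := by
      rw [Nat.card_congr (Subgroup.subgroupOfEquivOfLe hWH).toEquiv, hWi]
    obtain ⟨K, hK, hWK⟩ := Sylow.exists_subgroup_card_pow_prime_le 2 (m := j - 1) (n := i)
      (by rw [hHj]; exact pow_dvd_pow 2 (by omega)) (W.subgroupOf H) hW' (by omega)
    set H' : Subgroup G := K.map H.subtype with hH'def
    have hH'card : Nat.card H' = 2 ^ (j - 1) := by
      rw [hH'def, Subgroup.card_map_of_injective H.subtype_injective, hK]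
    have hH'H : H' ≤ H := Subgroup.map_subtype_le K
    have hWH' : W ≤ H' := by
      intro w hw
      exact Subgroup.mem_map.mpr ⟨⟨w, hWH hw⟩, hWK (Subgroup.mem_subgroupOf.mpr hw), rfl⟩
    have hcard2 : Nat.card H = 2 * Nat.card H' := by
      rw [hHj, hH'card, ← pow_succ']
      congr 1; omega
    have hmem := mul_mem_iff_of_card_two H H' hH'H hcard2
    obtain ⟨a, haH, haH'⟩ : ∃ a, a ∈ H ∧ a ∉ H' := by
      by_contra hcon
      push Not at hcon
      have hle : H ≤ H' := fun x hx => hcon x hx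
      have := Subgroup.card_le_of_le hle
      have hpos : 0 < Nat.card H' := Nat.card_pos
      omega
    have hidx : ∀ y ∈ H, y ∉ H' → y * a⁻¹ ∈ H' := by
      intro y hy hy'
      rw [hmem y hy a⁻¹ (H.inv_mem haH)]
      simp [hy', haH']
    rw [Cnt_split H H' a hH'H haH haH' hidx f]
    refine dvd_add ?_ ?_
    · refine ih (Dlt a f) H' (j - 1) (hf a) ?_ hWH' hH'card (by omega)
      intro x w hw
      simp only [Dlt_apply]
      rw [hinv x w hw, mul_assoc, hWc w hw a, ← mul_assoc, hinv (x * a) w hw]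
    · refine Nat.mul_dvd_mul_left 2 ?_
      rw [← hWi]
      refine dvd_Cnt W H' hWH' _ ?_
      intro x w hw
      simp only [Pi.mul_apply, Pi.add_apply, Pi.one_apply, Dlt_apply]
      rw [hinv x w hw, mul_assoc, hWc w hw a, ← mul_assoc, hinv (x * a) w hw]

/-- The character of `W` with kernel `zpowers u`. -/
theorem exists_char [Finite G] (W : Subgroup G) (hW2 : ∀ w ∈ W, w * w = 1)
    (hW4 : Nat.card W = 4) (u : G) (hu : u ∈ W) (hu1 : u ≠ 1) :
    ∃ χ : G → ZMod 2, (∀ x ∈ W, ∀ y ∈ W, χ (x * y) = χ x + χ y) ∧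
      (∀ x, χ x = 0 ↔ (x = 1 ∨ x = u)) := by
  classical
  have hord : orderOf u = 2 := by
    have : Fact (Nat.Prime 2) := ⟨Nat.prime_two⟩
    exact orderOf_eq_prime (by rw [pow_two]; exact hW2 u hu) hu1
  have hKW : Subgroup.zpowers u ≤ W := by
    rw [Subgroup.zpowers_le]; exact hu
  have hKcard : Nat.card (Subgroup.zpowers u) = 2 := by
    rw [Nat.card_zpowers, hord]
  have hmemK : ∀ x, x ∈ Subgroup.zpowers u ↔ (x = 1 ∨ x = u) := by
    intro x
    constructor
    · intro hx
      obtain ⟨k, rfl⟩ := Subgroup.mem_zpowers_iff.mp hx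
      have h1 : u ^ k = u ^ (k % 2) := by
        have := zpow_mod_orderOf u k
        rw [hord] at this
        exact this.symm
      rcases Int.emod_two_eq_zero_or_one k with h | h
      · left; rw [h1, h, zpow_zero]
      · right; rw [h1, h, zpow_one]
    · rintro (rfl | rfl)
      · exact Subgroup.one_mem _
      · exact Subgroup.mem_zpowers _
  have hmul := mul_mem_iff_of_card_two W (Subgroup.zpowers u) hKW (by rw [hW4, hKcard])
  refine ⟨fun x => if x ∈ Subgroup.zpowers u then 0 else 1, ?_, ?_⟩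
  · intro x hx y hy
    have h := hmul x hx y hy
    by_cases h1 : x ∈ Subgroup.zpowers u <;> by_cases h2 : y ∈ Subgroup.zpowers u <;>
      simp only [h1, h2, iff_true, iff_false, not_true] at h <;>
      simp only [h, h1, h2, if_true, if_false] <;> decide
  · intro x
    rw [← hmemK x]
    by_cases h1 : x ∈ Subgroup.zpowers u <;> simp [h1]

/-- A finite 2-group whose squares lie in a central four-subgroup `W` of exponent 2 and whose
order is divisible by `256` has an involution outside `W`. -/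
theorem exists_involution_not_mem [Finite G] (W : Subgroup G)
    (hWc : ∀ w ∈ W, ∀ x : G, w * x = x * w) (hW2 : ∀ w ∈ W, w * w = 1)
    (hW4 : Nat.card W = 4) (hsq : ∀ x : G, x * x ∈ W) (j : ℕ) (hj : Nat.card G = 2 ^ j)
    (h8 : 8 ≤ j) :
    ∃ y : G, y ∉ W ∧ y * y = 1 := by
  classical
  by_contra hcon
  push Not at hcon
  have hinvW : ∀ y : G, y * y = 1 → y ∈ W := fun y hy => by_contra fun h => hcon y h hy
  -- two independent elements
  obtain ⟨u, hu, hu1⟩ : ∃ u, u ∈ W ∧ u ≠ 1 := by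
    by_contra h
    push Not at h
    have hbot : W = ⊥ := by
      rw [eq_bot_iff]; intro x hx; exact Subgroup.mem_bot.mpr (h x hx)
    rw [hbot, Subgroup.card_bot] at hW4
    omega
  obtain ⟨v, hv, hv1, hvu⟩ : ∃ v, v ∈ W ∧ v ≠ 1 ∧ v ≠ u := by
    by_contra h
    push Not at h
    have hle : W ≤ Subgroup.zpowers u := by
      intro x hx
      by_cases hx1 : x = 1
      · rw [hx1]; exact Subgroup.one_mem _
      · rw [h x hx hx1]; exact Subgroup.mem_zpowers _
    have h1 := Subgroup.card_le_of_le hle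
    have hord : orderOf u = 2 := by
      have : Fact (Nat.Prime 2) := ⟨Nat.prime_two⟩
      exact orderOf_eq_prime (by rw [pow_two]; exact hW2 u hu) hu1
    rw [Nat.card_zpowers, hord, hW4] at h1
    omega
  obtain ⟨χ1, hχ1, hk1⟩ := exists_char W hW2 hW4 u hu hu1
  obtain ⟨χ2, hχ2, hk2⟩ := exists_char W hW2 hW4 v hv hv1
  -- commutators lie in W
  have hcomm : ∀ x a : G, x⁻¹ * a * x * a⁻¹ ∈ W := by
    intro x a
    have h1 : x⁻¹ * a * x * a⁻¹ = (x * x)⁻¹ * ((x * a) * (x * a)) * (a * a)⁻¹ := by group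
    rw [h1]
    exact W.mul_mem (W.mul_mem (W.inv_mem (hsq x)) (hsq _)) (W.inv_mem (hsq a))
  -- quadratic maps have degree 3
  have hdeg : ∀ χ : G → ZMod 2, (∀ x ∈ W, ∀ y ∈ W, χ (x * y) = χ x + χ y) →
      Deg 3 (fun x => χ (x * x)) := by
    intro χ hχ
    have hq : ∀ a x : G, χ ((x * a) * (x * a)) =
        χ (x * x) + χ (x⁻¹ * a * x * a⁻¹) + χ (a * a) := by
      intro a x
      have h1 : (x * a) * (x * a) = (x * x) * (x⁻¹ * a * x * a⁻¹) * (a * a) := by group
      rw [h1, hχ _ (W.mul_mem (hsq x) (hcomm x a)) _ (hsq a), hχ _ (hsq x) _ (hcomm x a)]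
    have hl : ∀ a x b : G, χ ((x * b)⁻¹ * a * (x * b) * a⁻¹) =
        χ (x⁻¹ * a * x * a⁻¹) + χ (b⁻¹ * a * b * a⁻¹) := by
      intro a x b
      have hc := hWc _ (hcomm x a) b⁻¹
      have h1 : (x * b)⁻¹ * a * (x * b) * a⁻¹ =
          (x⁻¹ * a * x * a⁻¹) * (b⁻¹ * a * b * a⁻¹) := by
        calc (x * b)⁻¹ * a * (x * b) * a⁻¹
            = b⁻¹ * (x⁻¹ * a * x * a⁻¹) * (a * b * a⁻¹) := by group
          _ = (x⁻¹ * a * x * a⁻¹) * b⁻¹ * (a * b * a⁻¹) := by rw [hc]
          _ = (x⁻¹ * a * x * a⁻¹) * (b⁻¹ * a * b * a⁻¹) := by group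
      rw [h1, hχ _ (hcomm x a) _ (hcomm b a)]
    have e1 : ∀ a y : G, Dlt a (fun x => χ (x * x)) y =
        χ (y⁻¹ * a * y * a⁻¹) + χ (a * a) := by
      intro a y
      simp only [Dlt_apply]
      rw [hq]
      generalize χ (y * y) = p
      generalize χ (y⁻¹ * a * y * a⁻¹) = q
      generalize χ (a * a) = r
      revert p q r
      decide
    have e2 : ∀ a b y : G, Dlt b (Dlt a (fun x => χ (x * x))) y =
        χ (b⁻¹ * a * b * a⁻¹) := by
      intro a b y
      rw [Dlt_apply, e1, e1, hl]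
      generalize χ (y⁻¹ * a * y * a⁻¹) = p
      generalize χ (b⁻¹ * a * b * a⁻¹) = q
      generalize χ (a * a) = r
      revert p q r
      decide
    intro a b c
    show Dlt c (Dlt b (Dlt a (fun x => χ (x * x)))) = 0
    funext y
    rw [Dlt_apply, e2, e2]
    simp only [Pi.zero_apply]
    generalize χ (b⁻¹ * a * b * a⁻¹) = q
    revert q
    decide
  have hone : Deg 3 (1 : G → ZMod 2) := by
    refine Deg_mono (k := 1) (by omega) _ ?_
    intro a
    show Dlt a (1 : G → ZMod 2) = 0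
    funext x
    simp only [Dlt_apply, Pi.one_apply, Pi.zero_apply]
    decide
  set f : G → ZMod 2 := (1 + fun x => χ1 (x * x)) * (1 + fun x => χ2 (x * x)) with hf
  have hfdeg : Deg 6 f :=
    Deg_mul 6 3 3 _ _ (by omega) (Deg_add 3 _ _ hone (hdeg χ1 hχ1))
      (Deg_add 3 _ _ hone (hdeg χ2 hχ2))
  have hfinv : ∀ x, ∀ w ∈ W, f (x * w) = f x := by
    intro x w hw
    have h1 : (x * w) * (x * w) = x * x := by
      calc (x * w) * (x * w) = x * (w * x) * w := by group
        _ = x * (x * w) * w := by rw [hWc w hw x]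
        _ = x * x * (w * w) := by group
        _ = x * x := by rw [hW2 w hw, mul_one]
    simp only [hf, Pi.mul_apply, Pi.add_apply, Pi.one_apply, h1]
  have hdvd := Cnt_dvd W hWc 2 (by rw [hW4]; norm_num) 6 f ⊤ j hfdeg hfinv le_top
    (by rw [Subgroup.card_top, hj]) (by omega)
  have hset : {x : G | x ∈ (⊤ : Subgroup G) ∧ f x = 1} = (W : Set G) := by
    ext x
    simp only [Set.mem_ofPred_eq, Subgroup.mem_top, true_and, SetLike.mem_coe, hf,
      Pi.mul_apply, Pi.add_apply, Pi.one_apply]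
    constructor
    · intro h
      have h1 : χ1 (x * x) = 0 ∧ χ2 (x * x) = 0 := by
        revert h
        generalize χ1 (x * x) = p
        generalize χ2 (x * x) = q
        revert p q
        decide
      have h2 := (hk1 _).mp h1.1
      have h3 := (hk2 _).mp h1.2
      apply hinvW
      rcases h2 with h2 | h2
      · exact h2
      · rcases h3 with h3 | h3
        · exact h3
        · exact absurd (h3.symm.trans h2) hvu
    · intro hx
      rw [hW2 x hx, (hk1 1).mpr (Or.inl rfl), (hk2 1).mpr (Or.inl rfl)]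
      decide
  unfold Cnt at hdvd
  have hc : (W : Set G).ncard = Nat.card W := (Nat.card_coe_set_eq (W : Set G)).symm
  rw [hset, hc, hW4] at hdvd
  omega

end Cfsg.Agent.Lib.Helper64.QuadZero
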