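import Mathlib
import Cfsg.Agent.Lib.Helper64.QuadZero

/-!
# Fixed-point-free 3-elements on 2-groups of rank at most 2
-/

set_option autoImplicit false

namespace Cfsg.Agent.Lib.Helper64.Fpf3

theorem tab9 : ∀ r < 9, r ≠ 0 → ∃ l < 9, (r * l) % 9 = 3 := by decide

/-- A permutation of order dividing 9 whose cube has a unique fixed point acts on a set of
size `≡ 1 mod 9`. -/
theorem card_mod_nine {Ω : Type*} [Finite Ω] (σ : Equiv.Perm Ω) (ω₀ : Ω)
    (h9 : σ ^ 9 = 1) (h3 : ∀ ω, (σ ^ 3) ω = ω → ω = ω₀) (h0 : σ ω₀ = ω₀) :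
    Nat.card Ω % 9 = 1 := by
  classical
  have : Fintype Ω := Fintype.ofFinite Ω
  by_cases htriv : ∀ ω : Ω, ω = ω₀
  · have hc : Nat.card Ω = 1 := by
      rw [Nat.card_eq_one_iff_unique]
      exact ⟨⟨fun x y => (htriv x).trans (htriv y).symm⟩, ⟨ω₀⟩⟩
    omega
  · push Not at htriv
    obtain ⟨ω₁, hω₁⟩ := htriv
    have hne : σ ^ 3 ≠ 1 := by
      intro h
      exact hω₁ (h3 ω₁ (by rw [h]; rfl))
    have : Fact (Nat.Prime 3) := ⟨Nat.prime_three⟩
    have hord : orderOf σ = 9 := by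
      have h := orderOf_eq_prime_pow (x := σ) (p := 3) (n := 1) (by simpa using hne)
        (by simpa using h9)
      simpa using h
    have hcard : Fintype.card (Subgroup.zpowers σ) = 9 := by
      rw [← Nat.card_eq_fintype_card, Nat.card_zpowers, hord]
    have hfix : ∀ h : Subgroup.zpowers σ, h ≠ 1 →
        Fintype.card (MulAction.fixedBy Ω h) = 1 := by
      intro h hh
      obtain ⟨k, hk⟩ : ∃ k : ℕ, σ ^ k = (h : Equiv.Perm Ω) := by
        have h1 := h.2
        rw [← mem_powers_iff_mem_zpowers] at h1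
        exact (Submonoid.mem_powers_iff _ _).mp h1
      have hk' : σ ^ (k % 9) = (h : Equiv.Perm Ω) := by
        rw [← pow_eq_pow_mod k h9]; exact hk
      have hr0 : k % 9 ≠ 0 := by
        intro h0'
        rw [h0', pow_zero] at hk'
        exact hh (Subtype.ext hk'.symm)
      obtain ⟨l, -, hl⟩ := tab9 (k % 9) (Nat.mod_lt _ (by norm_num)) hr0
      rw [Fintype.card_eq_one_iff]
      refine ⟨⟨ω₀, ?_⟩, ?_⟩
      · rw [MulAction.mem_fixedBy]
        show (h : Equiv.Perm Ω) ω₀ = ω₀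
        rw [← hk]
        exact Equiv.Perm.pow_apply_eq_self_of_apply_eq_self h0 k
      · rintro ⟨ω, hω⟩
        apply Subtype.ext
        show ω = ω₀
        rw [MulAction.mem_fixedBy] at hω
        have h1 : (h : Equiv.Perm Ω) ω = ω := hω
        rw [← hk'] at h1
        have h2 := Equiv.Perm.pow_apply_eq_self_of_apply_eq_self h1 l
        rw [← pow_mul, pow_eq_pow_mod _ h9, hl] at h2
        exact h3 ω h2
    have hB := MulAction.sum_card_fixedBy_eq_card_orbits_mul_card_group (Subgroup.zpowers σ) Ω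
    rw [← Finset.add_sum_erase Finset.univ _ (Finset.mem_univ (1 : Subgroup.zpowers σ)),
      Finset.sum_congr rfl (fun h hh => hfix h (Finset.ne_of_mem_erase hh)), hcard] at hB
    have h1 : Fintype.card (MulAction.fixedBy Ω (1 : Subgroup.zpowers σ)) = Fintype.card Ω :=
      Fintype.card_congr (Equiv.subtypeUnivEquiv (fun ω => by simp))
    rw [h1, Finset.sum_const, Finset.card_erase_of_mem (Finset.mem_univ _), Finset.card_univ,
      hcard] at hB
    rw [Nat.card_eq_fintype_card]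
    simp only [smul_eq_mul, mul_one] at hB
    omega

/-- Coset version: a map `φ` of `G` compatible with left cosets of `N`, inducing on `G ⧸ N` a
permutation of order dividing 9 whose cube fixes only the trivial coset. -/
theorem index_mod_nine {G : Type*} [Group G] [Finite G] (N : Subgroup G) (φ : G → G)
    (hφ : ∀ x y, x⁻¹ * y ∈ N → (φ x)⁻¹ * φ y ∈ N)
    (h9 : ∀ x, x⁻¹ * φ^[9] x ∈ N) (h3 : ∀ x, x⁻¹ * φ^[3] x ∈ N → x ∈ N) (h1 : φ 1 ∈ N) :
    N.index % 9 = 1 := by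
  classical
  let φb : G ⧸ N → G ⧸ N := Quotient.map' φ (fun x y hxy => by
    rw [QuotientGroup.leftRel_apply] at hxy ⊢; exact hφ x y hxy)
  have hφb1 : ∀ x : G, φb (QuotientGroup.mk x) = QuotientGroup.mk (φ x) := fun x => rfl
  have hφb : ∀ (k : ℕ) (x : G), φb^[k] (QuotientGroup.mk x) = QuotientGroup.mk (φ^[k] x) := by
    intro k
    induction k with
    | zero => intro x; rfl
    | succ k ih =>
      intro x
      rw [Function.iterate_succ_apply', Function.iterate_succ_apply', ih, hφb1]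
  have h9b : ∀ ω, φb^[9] ω = ω := by
    intro ω
    induction ω using QuotientGroup.induction_on with
    | H x => rw [hφb]; exact (QuotientGroup.eq.mpr (h9 x)).symm
  let σ : Equiv.Perm (G ⧸ N) :=
    ⟨φb, φb^[8], fun ω => h9b ω, fun ω => h9b ω⟩
  have hσ : ∀ (k : ℕ) (ω : G ⧸ N), (σ ^ k) ω = φb^[k] ω := by
    intro k ω
    rw [← Equiv.Perm.iterate_eq_pow]; rfl
  have key := card_mod_nine σ (QuotientGroup.mk (1 : G)) ?_ ?_ ?_
  · exact key
  · ext ω
    rw [hσ, h9b]; rfl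
  · intro ω
    induction ω using QuotientGroup.induction_on with
    | H x =>
      intro h
      rw [hσ, hφb] at h
      have h' := h3 x (QuotientGroup.eq.mp h.symm)
      rw [QuotientGroup.eq]
      simpa using N.inv_mem h'
  · show φb (QuotientGroup.mk 1) = QuotientGroup.mk 1
    rw [hφb1, QuotientGroup.eq]
    simpa using N.inv_mem h1

/-- In a finite 2-group, a proper normal subgroup `N` admits `x ∉ N` which is a central
involution modulo `N`. -/
theorem exists_central_involution_mod {G : Type*} [Group G] [Finite G] (hG : IsPGroup 2 G)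
    (N : Subgroup G) [N.Normal] (hN : N ≠ ⊤) :
    ∃ x, x ∉ N ∧ x * x ∈ N ∧ ∀ y, x⁻¹ * y⁻¹ * x * y ∈ N := by
  have : Fact (Nat.Prime 2) := ⟨Nat.prime_two⟩
  have hQ : IsPGroup 2 (G ⧸ N) := hG.to_quotient N
  have hnt : Nontrivial (G ⧸ N) := by
    rw [← Finite.one_lt_card_iff_nontrivial]
    have h1 : Nat.card (G ⧸ N) ≠ 1 := fun h => hN (Subgroup.index_eq_one.mp h)
    have h2 : 0 < Nat.card (G ⧸ N) := Nat.card_pos
    omega
  have hZnt := hQ.center_nontrivial
  have hZ : IsPGroup 2 (Subgroup.center (G ⧸ N)) := hQ.to_subgroup _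
  obtain ⟨k, hk⟩ := IsPGroup.iff_card.mp hZ
  have h2 : 2 ∣ Nat.card (Subgroup.center (G ⧸ N)) := by
    rw [hk]
    rcases k with _ | k
    · have := Finite.one_lt_card_iff_nontrivial.mpr hZnt
      rw [hk] at this
      simp at this
    · exact dvd_pow_self 2 (by omega)
  obtain ⟨z, hz⟩ := exists_prime_orderOf_dvd_card' 2 h2
  obtain ⟨x, hx⟩ := QuotientGroup.mk_surjective (z : G ⧸ N)
  have hz1 : (z : G ⧸ N) ≠ 1 := by
    intro h
    have : z = 1 := Subtype.ext h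
    rw [this, orderOf_one] at hz
    omega
  have hz2 : (z : G ⧸ N) * z = 1 := by
    have := pow_orderOf_eq_one z
    rw [hz, pow_two] at this
    exact congrArg Subtype.val this
  refine ⟨x, ?_, ?_, ?_⟩
  · intro hxN
    apply hz1
    rw [← hx]
    exact (QuotientGroup.eq_one_iff x).mpr hxN
  · rw [← QuotientGroup.eq_one_iff, QuotientGroup.mk_mul, hx]
    exact hz2
  · intro y
    rw [← QuotientGroup.eq_one_iff]
    simp only [QuotientGroup.mk_mul, QuotientGroup.mk_inv, hx]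
    have hc := Subgroup.mem_center_iff.mp z.2 (QuotientGroup.mk y : G ⧸ N)
    rw [mul_assoc, ← hc]
    group

theorem dvd_of_pow_two_mod_nine (i : ℕ) (h : 2 ^ i % 9 = 1) (hi : i ≠ 0) : 64 ∣ 2 ^ i := by
  by_cases h6 : 6 ≤ i
  · exact pow_dvd_pow 2 h6
  · exfalso
    interval_cases i <;> simp at h hi

section Main

variable {X : Type*} [Group X]

theorem conj_mem {Q : Subgroup X} {g x : X} (hg : g ∈ Subgroup.normalizer (Q : Set X))
    (hx : x ∈ Q) : g * x * g⁻¹ ∈ Q :=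
  (Subgroup.mem_normalizer_iff.mp hg x).mp hx

theorem conj_mem' {Q : Subgroup X} {g x : X} (hg : g ∈ Subgroup.normalizer (Q : Set X))
    (hx : x ∈ Q) : g⁻¹ * x * g ∈ Q := by
  have h := conj_mem (Subgroup.inv_mem _ hg) hx
  simpa using h

theorem le_normalizer_of_conj (S Q : Subgroup X) (h : ∀ g ∈ S, ∀ x ∈ Q, g * x * g⁻¹ ∈ Q) :
    S ≤ Subgroup.normalizer (Q : Set X) := by
  intro g hg
  rw [Subgroup.mem_normalizer_iff]
  intro x
  refine ⟨h g hg x, fun hx => ?_⟩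
  have h1 := h g⁻¹ (S.inv_mem hg) _ hx
  have h2 : g⁻¹ * (g * x * g⁻¹) * g⁻¹⁻¹ = x := by group
  rwa [h2] at h1

/-- If `a` (a 3-element) centralizes `R ≤ P` and moves every element of the 2-group `P` by an
element of `R`, then `a` centralizes `P`. -/
theorem centralizes_of_comm_mem (a : X) (n : ℕ) (ha : a ^ 3 ^ n = 1) (P R : Subgroup X)
    (hP : IsPGroup 2 P) (hRP : R ≤ P) (hR : ∀ r ∈ R, a * r = r * a)
    (hc : ∀ x ∈ P, x⁻¹ * (a * x * a⁻¹) ∈ R) : ∀ x ∈ P, a * x = x * a := by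
  intro x hx
  obtain ⟨r, hr⟩ : ∃ r, r = x⁻¹ * (a * x * a⁻¹) := ⟨_, rfl⟩
  have hrR : r ∈ R := by rw [hr]; exact hc x hx
  have hcomm := hR r hrR
  have hax : a * x * a⁻¹ = x * r := by rw [hr]; group
  have hpow : ∀ k : ℕ, a ^ k * x * (a ^ k)⁻¹ = x * r ^ k := by
    intro k
    induction k with
    | zero => simp
    | succ k ih =>
      have h1 : a ^ (k + 1) * x * (a ^ (k + 1))⁻¹ = a * (a ^ k * x * (a ^ k)⁻¹) * a⁻¹ := by
        rw [pow_succ']; group
      have h2 : a * r ^ k = r ^ k * a := Commute.pow_right hcomm k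
      rw [h1, ih, pow_succ']
      calc a * (x * r ^ k) * a⁻¹ = (a * x * a⁻¹) * (a * r ^ k) * a⁻¹ := by group
        _ = (x * r) * (r ^ k * a) * a⁻¹ := by rw [h2, hax]
        _ = x * (r * r ^ k) := by group
  have h1 := hpow (3 ^ n)
  rw [ha] at h1
  have hr3 : r ^ 3 ^ n = 1 := by
    have h2 : x * r ^ 3 ^ n = x * 1 := by rw [← h1]; group
    exact mul_left_cancel h2
  obtain ⟨j, hj⟩ := hP ⟨r, hRP hrR⟩
  have hr2 : r ^ 2 ^ j = 1 := by
    have := congrArg Subtype.val hj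
    simpa using this
  have hr1 : r = 1 := by
    have hd1 := orderOf_dvd_of_pow_eq_one hr3
    have hd2 := orderOf_dvd_of_pow_eq_one hr2
    have hcop : Nat.Coprime (3 ^ n) (2 ^ j) := Nat.Coprime.pow _ _ (by norm_num)
    have h3 := Nat.dvd_gcd hd1 hd2
    rw [hcop.gcd_eq_one] at h3
    exact orderOf_eq_one_iff.mp (Nat.dvd_one.mp h3)
  rw [hr1, mul_one] at hax
  calc a * x = (a * x * a⁻¹) * a := by group
    _ = x * a := by rw [hax]

theorem exists_max_inv_normal [Finite X] (d : X) (P : Subgroup X) (hPne : P ≠ ⊥) :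
    ∃ M : Subgroup X, M ≤ P ∧ M ≠ P ∧ d ∈ Subgroup.normalizer (M : Set X) ∧
      P ≤ Subgroup.normalizer (M : Set X) ∧
      ∀ K : Subgroup X, K ≤ P → M ≤ K → d ∈ Subgroup.normalizer (K : Set X) →
        P ≤ Subgroup.normalizer (K : Set X) → K = M ∨ K = P := by
  have hb : (⊤ : Subgroup X) ≤ Subgroup.normalizer ((⊥ : Subgroup X) : Set X) := by
    apply le_normalizer_of_conj
    intro g _ x hx
    rw [Subgroup.mem_bot] at hx ⊢
    rw [hx]; group
  have hbot : (⊥ : Subgroup X) ∈ {M : Subgroup X | M ≤ P ∧ M ≠ P ∧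
      d ∈ Subgroup.normalizer (M : Set X) ∧ P ≤ Subgroup.normalizer (M : Set X)} :=
    ⟨bot_le, fun h => hPne h.symm, hb (Subgroup.mem_top d), le_top.trans hb⟩
  obtain ⟨M, hM, hmax⟩ := Set.exists_max_image _ (fun M : Subgroup X => Nat.card M)
    (Set.toFinite _) ⟨⊥, hbot⟩
  refine ⟨M, hM.1, hM.2.1, hM.2.2.1, hM.2.2.2, ?_⟩
  intro K hKP hMK hdK hPK
  by_cases hK : K = P
  · exact Or.inr hK
  · left
    have h1 := hmax K ⟨hKP, hK, hdK, hPK⟩
    exact (Subgroup.eq_of_le_of_card_ge hMK h1).symm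

/-- The configuration of a minimal counterexample. -/
structure Setup (d a : X) (P M : Subgroup X) : Prop where
  hP : IsPGroup 2 P
  hdP : d ∈ Subgroup.normalizer (P : Set X)
  haP : a ∈ Subgroup.normalizer (P : Set X)
  hK : ∀ Q : Subgroup X, Q ≤ P → d ∈ Subgroup.normalizer (Q : Set X) →
    (∀ x ∈ P, x⁻¹ * (a * x * a⁻¹) ∈ Q) → Q = P
  hMP : M ≤ P
  hMne : M ≠ P
  hdM : d ∈ Subgroup.normalizer (M : Set X)
  hPM : P ≤ Subgroup.normalizer (M : Set X)
  hMmax : ∀ K : Subgroup X, K ≤ P → M ≤ K → d ∈ Subgroup.normalizer (K : Set X) →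
    P ≤ Subgroup.normalizer (K : Set X) → K = M ∨ K = P
  haM : ∀ m ∈ M, a * m = m * a

theorem Setup.cent {d a : X} {P M : Subgroup X} (h : Setup d a P M) :
    ∀ x ∈ P, ∀ m ∈ M, x * m = m * x := by
  have hC : P ⊓ Subgroup.centralizer (M : Set X) = P := by
    apply h.hK _ inf_le_left
    · have hle := le_normalizer_of_conj
        (Subgroup.normalizer (P : Set X) ⊓ Subgroup.normalizer (M : Set X))
        (P ⊓ Subgroup.centralizer (M : Set X)) ?_
      · exact hle ⟨h.hdP, h.hdM⟩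
      · intro g hg x hx
        obtain ⟨hgP, hgM⟩ := Subgroup.mem_inf.mp hg
        obtain ⟨hxP, hxC⟩ := Subgroup.mem_inf.mp hx
        refine Subgroup.mem_inf.mpr ⟨conj_mem hgP hxP, ?_⟩
        rw [Subgroup.mem_centralizer_iff] at hxC ⊢
        intro m hm
        have h1 := hxC (g⁻¹ * m * g) (conj_mem' hgM hm)
        calc m * (g * x * g⁻¹) = g * ((g⁻¹ * m * g) * x) * g⁻¹ := by group
          _ = g * (x * (g⁻¹ * m * g)) * g⁻¹ := by rw [h1]
          _ = g * x * g⁻¹ * m := by group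
    · intro x hx
      refine Subgroup.mem_inf.mpr ⟨P.mul_mem (P.inv_mem hx) (conj_mem h.haP hx), ?_⟩
      rw [Subgroup.mem_centralizer_iff]
      intro m hm
      have e1 : a⁻¹ * m * a = m := by rw [mul_assoc, ← h.haM m hm, inv_mul_cancel_left]
      have e2 := h.haM _ (conj_mem (h.hPM hx) hm)
      symm
      calc x⁻¹ * (a * x * a⁻¹) * m = x⁻¹ * a * x * (a⁻¹ * m * a) * a⁻¹ := by group
        _ = x⁻¹ * a * x * m * a⁻¹ := by rw [e1]
        _ = x⁻¹ * (a * (x * m * x⁻¹)) * x * a⁻¹ := by group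
        _ = x⁻¹ * ((x * m * x⁻¹) * a) * x * a⁻¹ := by rw [e2]
        _ = m * (x⁻¹ * (a * x * a⁻¹)) := by group
  intro x hx m hm
  have hx' : x ∈ P ⊓ Subgroup.centralizer (M : Set X) := by rw [hC]; exact hx
  exact (Subgroup.mem_centralizer_iff.mp (Subgroup.mem_inf.mp hx').2 m hm).symm

/-- Preimage in `P` of the central involutions of `P/M`. -/
def omegaZ (P M : Subgroup X) (hPM : P ≤ Subgroup.normalizer (M : Set X)) : Subgroup X where
  carrier := {x | x ∈ P ∧ x * x ∈ M ∧ ∀ y ∈ P, x⁻¹ * y⁻¹ * x * y ∈ M}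
  mul_mem' := by
    rintro x1 x2 ⟨h1P, h1s, h1c⟩ ⟨h2P, h2s, h2c⟩
    refine ⟨P.mul_mem h1P h2P, ?_, ?_⟩
    · have e : x1 * x2 * (x1 * x2) =
          (x1 * x1) * (x1⁻¹ * x2⁻¹⁻¹ * x1 * x2⁻¹) * (x2 * x2) := by group
      rw [e]
      exact M.mul_mem (M.mul_mem h1s (h1c _ (P.inv_mem h2P))) h2s
    · intro y hy
      have e : (x1 * x2)⁻¹ * y⁻¹ * (x1 * x2) * y =
          x2⁻¹ * (x1⁻¹ * y⁻¹ * x1 * y) * x2 * (x2⁻¹ * y⁻¹ * x2 * y) := by group
      rw [e]
      exact M.mul_mem (conj_mem' (hPM h2P) (h1c y hy)) (h2c y hy)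
  one_mem' := ⟨P.one_mem, by simp, fun y _ => by simp⟩
  inv_mem' := by
    rintro x ⟨hP, hs, hc⟩
    refine ⟨P.inv_mem hP, ?_, ?_⟩
    · have e : x⁻¹ * x⁻¹ = (x * x)⁻¹ := by group
      rw [e]; exact M.inv_mem hs
    · intro y hy
      have e : x⁻¹⁻¹ * y⁻¹ * x⁻¹ * y = x * (x⁻¹ * y⁻¹ * x * y)⁻¹ * x⁻¹ := by group
      rw [e]
      exact conj_mem (hPM hP) (M.inv_mem (hc y hy))

theorem omegaZ_conj (P M : Subgroup X) (hPM : P ≤ Subgroup.normalizer (M : Set X)) (g : X)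
    (hgP : g ∈ Subgroup.normalizer (P : Set X)) (hgM : g ∈ Subgroup.normalizer (M : Set X)) :
    ∀ x ∈ omegaZ P M hPM, g * x * g⁻¹ ∈ omegaZ P M hPM := by
  rintro x ⟨hxP, hs, hc⟩
  refine ⟨conj_mem hgP hxP, ?_, ?_⟩
  · have e : g * x * g⁻¹ * (g * x * g⁻¹) = g * (x * x) * g⁻¹ := by group
    rw [e]; exact conj_mem hgM hs
  · intro y hy
    have e : (g * x * g⁻¹)⁻¹ * y⁻¹ * (g * x * g⁻¹) * y =
        g * (x⁻¹ * (g⁻¹ * y * g)⁻¹ * x * (g⁻¹ * y * g)) * g⁻¹ := by group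
    rw [e]
    exact conj_mem hgM (hc _ (conj_mem' hgP hy))

theorem Setup.sq_comm [Finite X] {d a : X} {P M : Subgroup X} (h : Setup d a P M) :
    (∀ x ∈ P, x * x ∈ M) ∧ ∀ x ∈ P, ∀ y ∈ P, x⁻¹ * y⁻¹ * x * y ∈ M := by
  have hZ : omegaZ P M h.hPM = P := by
    have hle := le_normalizer_of_conj
      (Subgroup.normalizer (P : Set X) ⊓ Subgroup.normalizer (M : Set X))
      (omegaZ P M h.hPM) (fun g hg => omegaZ_conj P M h.hPM g hg.1 hg.2)
    have hZP : omegaZ P M h.hPM ≤ P := fun x hx => hx.1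
    have hMZ : M ≤ omegaZ P M h.hPM := by
      intro m hm
      refine ⟨h.hMP hm, M.mul_mem hm hm, fun y hy => ?_⟩
      have e : m⁻¹ * y⁻¹ * m * y = m⁻¹ * (y⁻¹ * m * y) := by group
      rw [e]
      exact M.mul_mem (M.inv_mem hm) (conj_mem' (h.hPM hy) hm)
    rcases h.hMmax _ hZP hMZ (hle ⟨h.hdP, h.hdM⟩)
      (fun p hp => hle ⟨Subgroup.le_normalizer hp, h.hPM hp⟩) with hZM | hZP'
    · exfalso
      have : (M.subgroupOf P).Normal :=
        (Subgroup.normal_subgroupOf_iff_le_normalizer h.hMP).mpr h.hPM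
      have hne : M.subgroupOf P ≠ ⊤ := by
        rw [Ne, Subgroup.subgroupOf_eq_top]
        intro hPM'
        exact h.hMne (le_antisymm h.hMP hPM')
      obtain ⟨x, hx1, hx2, hx3⟩ := exists_central_involution_mod h.hP (M.subgroupOf P) hne
      apply hx1
      rw [Subgroup.mem_subgroupOf]
      have hxZ : (x : X) ∈ omegaZ P M h.hPM := by
        refine ⟨x.2, ?_, ?_⟩
        · simpa [Subgroup.mem_subgroupOf] using hx2
        · intro y hy
          simpa [Subgroup.mem_subgroupOf] using hx3 ⟨y, hy⟩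
      rw [hZM] at hxZ
      exact hxZ
    · exact hZP'
  constructor
  · intro x hx
    have hx' : x ∈ omegaZ P M h.hPM := by rw [hZ]; exact hx
    exact hx'.2.1
  · intro x hx y hy
    have hx' : x ∈ omegaZ P M h.hPM := by rw [hZ]; exact hx
    exact hx'.2.2 y hy

/-- Elements of `P` fixed modulo `M` by conjugation by `g`. -/
def fixMod (P M : Subgroup X) (hPM : P ≤ Subgroup.normalizer (M : Set X)) (g : X) :
    Subgroup X where
  carrier := {x | x ∈ P ∧ x⁻¹ * (g * x * g⁻¹) ∈ M}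
  mul_mem' := by
    rintro x y ⟨hx, hxm⟩ ⟨hy, hym⟩
    refine ⟨P.mul_mem hx hy, ?_⟩
    have e : (x * y)⁻¹ * (g * (x * y) * g⁻¹) =
        y⁻¹ * (x⁻¹ * (g * x * g⁻¹)) * y * (y⁻¹ * (g * y * g⁻¹)) := by group
    rw [e]
    exact M.mul_mem (conj_mem' (hPM hy) hxm) hym
  one_mem' := ⟨P.one_mem, by simp⟩
  inv_mem' := by
    rintro x ⟨hx, hxm⟩
    refine ⟨P.inv_mem hx, ?_⟩
    have e : x⁻¹⁻¹ * (g * x⁻¹ * g⁻¹) = x * (x⁻¹ * (g * x * g⁻¹))⁻¹ * x⁻¹ := by group
    rw [e]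
    exact conj_mem (hPM hx) (M.inv_mem hxm)

theorem Setup.fixMod_eq [Finite X] {d a : X} {P M : Subgroup X} (h : Setup d a P M)
    (hcomm : ∀ x ∈ P, ∀ y ∈ P, x⁻¹ * y⁻¹ * x * y ∈ M) (g : X)
    (hg : g ∈ Subgroup.zpowers d) :
    fixMod P M h.hPM g = M ∨ fixMod P M h.hPM g = P := by
  have hgM : g ∈ Subgroup.normalizer (M : Set X) := (Subgroup.zpowers_le.mpr h.hdM) hg
  have hMK : M ≤ fixMod P M h.hPM g := by
    intro m hm
    exact ⟨h.hMP hm, M.mul_mem (M.inv_mem hm) (conj_mem hgM hm)⟩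
  apply h.hMmax (fixMod P M h.hPM g) (fun x hx => hx.1) hMK
  · have hle := le_normalizer_of_conj (Subgroup.zpowers d) (fixMod P M h.hPM g) ?_
    · exact hle (Subgroup.mem_zpowers d)
    · rintro u hu x ⟨hx, hxm⟩
      have huP : u ∈ Subgroup.normalizer (P : Set X) := (Subgroup.zpowers_le.mpr h.hdP) hu
      have huM : u ∈ Subgroup.normalizer (M : Set X) := (Subgroup.zpowers_le.mpr h.hdM) hu
      refine ⟨conj_mem huP hx, ?_⟩
      have hug : u * g = g * u := by
        obtain ⟨i, rfl⟩ := Subgroup.mem_zpowers_iff.mp hu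
        obtain ⟨j, rfl⟩ := Subgroup.mem_zpowers_iff.mp hg
        exact Commute.zpow_zpow_self d i j
      have hug' : u⁻¹ * g * u = g := by rw [mul_assoc, ← hug, inv_mul_cancel_left]
      have e : (u * x * u⁻¹)⁻¹ * (g * (u * x * u⁻¹) * g⁻¹) =
          u * (x⁻¹ * ((u⁻¹ * g * u) * x * (u⁻¹ * g * u)⁻¹)) * u⁻¹ := by group
      rw [e, hug']
      exact conj_mem huM hxm
  · apply le_normalizer_of_conj
    rintro p hp x ⟨hx, hxm⟩
    have e : p * x * p⁻¹ = x * (x⁻¹ * p⁻¹⁻¹ * x * p⁻¹) := by group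
    rw [e]
    exact (fixMod P M h.hPM g).mul_mem ⟨hx, hxm⟩ (hMK (hcomm x hx p⁻¹ (P.inv_mem hp)))

theorem Setup.index_dvd [Finite X] {d : X} {P M : Subgroup X} (h : Setup d (d ^ 3) P M)
    (n : ℕ) (hd : d ^ 3 ^ n = 1) (hcomm : ∀ x ∈ P, ∀ y ∈ P, x⁻¹ * y⁻¹ * x * y ∈ M) :
    64 * Nat.card M ∣ Nat.card P := by
  classical
  have hex : ∃ k, fixMod P M h.hPM (d ^ 3 ^ (k + 1)) = P := by
    refine ⟨n, ?_⟩
    have h1 : d ^ 3 ^ (n + 1) = 1 := by rw [pow_succ, pow_mul, hd, one_pow]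
    rw [h1]
    apply le_antisymm (fun x hx => hx.1)
    intro x hx
    exact ⟨hx, by simp⟩
  have h0 : fixMod P M h.hPM (d ^ 3 ^ (0 + 1)) ≠ P := by
    intro hP'
    apply h.hMne
    apply h.hK M h.hMP h.hdM
    intro x hx
    have hx' : x ∈ fixMod P M h.hPM (d ^ 3 ^ (0 + 1)) := by rw [hP']; exact hx
    have e : d ^ 3 ^ (0 + 1) = d ^ 3 := by norm_num
    have hx2 := hx'.2
    rw [e] at hx2
    exact hx2
  obtain ⟨k, hk⟩ : ∃ k, Nat.find hex = k + 1 := by
    rcases hfk : Nat.find hex with _ | k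
    · exfalso
      have hsp := Nat.find_spec hex
      rw [hfk] at hsp
      exact h0 hsp
    · exact ⟨k, rfl⟩
  have hkP : fixMod P M h.hPM (d ^ 3 ^ (k + 2)) = P := by
    have hsp := Nat.find_spec hex
    rw [hk] at hsp
    exact hsp
  have hkM : fixMod P M h.hPM (d ^ 3 ^ (k + 1)) = M := by
    have hmin := Nat.find_min hex (m := k) (by omega)
    rcases h.fixMod_eq hcomm (d ^ 3 ^ (k + 1))
      (Subgroup.pow_mem _ (Subgroup.mem_zpowers d) _) with h1 | h1
    · exact h1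
    · exact absurd h1 hmin
  obtain ⟨g, hg⟩ : ∃ g, g = d ^ 3 ^ k := ⟨_, rfl⟩
  have hg3 : g ^ 3 = d ^ 3 ^ (k + 1) := by rw [hg, ← pow_mul, ← pow_succ]
  have hg9 : g ^ 9 = d ^ 3 ^ (k + 2) := by
    rw [hg, ← pow_mul]; congr 1; rw [pow_add]; norm_num
  have hgP : g ∈ Subgroup.normalizer (P : Set X) := by
    rw [hg]; exact Subgroup.pow_mem _ h.hdP _
  have hgM : g ∈ Subgroup.normalizer (M : Set X) := by
    rw [hg]; exact Subgroup.pow_mem _ h.hdM _
  let φ : P → P := fun x => ⟨g * x * g⁻¹, conj_mem hgP x.2⟩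
  have hφ1 : ∀ x : P, ((φ x : P) : X) = g * x * g⁻¹ := fun x => rfl
  have hφk : ∀ (k : ℕ) (x : P), ((φ^[k] x : P) : X) = g ^ k * x * (g ^ k)⁻¹ := by
    intro k
    induction k with
    | zero => intro x; simp
    | succ k ih =>
      intro x
      rw [Function.iterate_succ_apply', hφ1, ih, pow_succ']
      group
  have hne : M.subgroupOf P ≠ ⊤ := by
    rw [Ne, Subgroup.subgroupOf_eq_top]
    intro hPM'
    exact h.hMne (le_antisymm h.hMP hPM')
  have hidx := index_mod_nine (M.subgroupOf P) φ ?_ ?_ ?_ ?_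
  · have hci := Subgroup.card_mul_index (M.subgroupOf P)
    rw [Nat.card_congr (Subgroup.subgroupOfEquivOfLe h.hMP).toEquiv] at hci
    obtain ⟨j, hj⟩ := IsPGroup.iff_card.mp h.hP
    have hdvd : (M.subgroupOf P).index ∣ 2 ^ j := by
      rw [← hj, ← hci]; exact dvd_mul_left _ _
    obtain ⟨i, -, hidx2⟩ := (Nat.dvd_prime_pow Nat.prime_two).mp hdvd
    have hi0 : i ≠ 0 := by
      intro hi0
      rw [hi0, pow_zero] at hidx2
      exact hne (Subgroup.index_eq_one.mp hidx2)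
    rw [hidx2] at hidx
    have h64 : 64 ∣ 2 ^ i := dvd_of_pow_two_mod_nine i hidx hi0
    rw [← hci, hidx2, mul_comm]
    exact Nat.mul_dvd_mul dvd_rfl h64
  · intro x y hxy
    rw [Subgroup.mem_subgroupOf] at hxy ⊢
    have e : (((φ x)⁻¹ * φ y : P) : X) = g * (((x⁻¹ * y : P) : X)) * g⁻¹ := by
      show (g * x * g⁻¹)⁻¹ * (g * y * g⁻¹) = g * ((x : X)⁻¹ * y) * g⁻¹
      group
    rw [e]; exact conj_mem hgM hxy
  · intro x
    rw [Subgroup.mem_subgroupOf]
    show (x : X)⁻¹ * ((φ^[9] x : P) : X) ∈ M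
    rw [hφk, hg9]
    have hx : (x : X) ∈ fixMod P M h.hPM (d ^ 3 ^ (k + 2)) := by rw [hkP]; exact x.2
    exact hx.2
  · intro x hx
    rw [Subgroup.mem_subgroupOf] at hx ⊢
    have hx' : (x : X)⁻¹ * ((φ^[3] x : P) : X) ∈ M := hx
    rw [hφk, hg3] at hx'
    have hx2 : (x : X) ∈ fixMod P M h.hPM (d ^ 3 ^ (k + 1)) := ⟨x.2, hx'⟩
    rw [hkM] at hx2
    exact hx2
  · rw [Subgroup.mem_subgroupOf]
    show g * ((1 : P) : X) * g⁻¹ ∈ M
    simp

/-- The elements of order at most 2 of an abelian subgroup. -/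
def omega1 (M : Subgroup X) (hM : ∀ x ∈ M, ∀ y ∈ M, x * y = y * x) : Subgroup X where
  carrier := {t | t ∈ M ∧ t * t = 1}
  mul_mem' := by
    rintro s t ⟨hs, hs2⟩ ⟨ht, ht2⟩
    refine ⟨M.mul_mem hs ht, ?_⟩
    calc s * t * (s * t) = s * (t * s) * t := by group
      _ = s * (s * t) * t := by rw [hM t ht s hs]
      _ = (s * s) * (t * t) := by group
      _ = 1 := by rw [hs2, ht2, one_mul]
  one_mem' := ⟨M.one_mem, one_mul 1⟩
  inv_mem' := by
    rintro t ⟨ht, ht2⟩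
    exact ⟨M.inv_mem ht, by rw [← mul_inv_rev, ht2, inv_one]⟩

/-- The elements of `P` whose square lies in `W`. -/
def sqIn (P W : Subgroup X) (hcW : ∀ x ∈ P, ∀ y ∈ P, x⁻¹ * y⁻¹ * x * y ∈ W) : Subgroup X where
  carrier := {y | y ∈ P ∧ y * y ∈ W}
  mul_mem' := by
    rintro x y ⟨hx, hx2⟩ ⟨hy, hy2⟩
    refine ⟨P.mul_mem hx hy, ?_⟩
    have e : x * y * (x * y) = (x * x) * (x⁻¹ * y⁻¹⁻¹ * x * y⁻¹) * (y * y) := by group
    rw [e]
    exact W.mul_mem (W.mul_mem hx2 (hcW x hx _ (P.inv_mem hy))) hy2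
  one_mem' := ⟨P.one_mem, by simp⟩
  inv_mem' := by
    rintro x ⟨hx, hx2⟩
    refine ⟨P.inv_mem hx, ?_⟩
    have e : x⁻¹ * x⁻¹ = (x * x)⁻¹ := by group
    rw [e]; exact W.inv_mem hx2

theorem Setup.false [Finite X] {d : X} {P M : Subgroup X} (h : Setup d (d ^ 3) P M) (n : ℕ)
    (hd : d ^ 3 ^ n = 1) (hfpf : ∀ x ∈ P, d * x = x * d → x = 1)
    (hrank : ∀ E : Subgroup X, E ≤ P → (∀ x ∈ E, ∀ y ∈ E, x * y = y * x) →
      (∀ x ∈ E, x * x = 1) → Nat.card E ≤ 4) : False := by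
  have hcent := h.cent
  obtain ⟨hsqM, hcommM⟩ := h.sq_comm
  have h64 := h.index_dvd n hd hcommM
  have hMcomm : ∀ x ∈ M, ∀ y ∈ M, x * y = y * x := fun x hx y hy => hcent x (h.hMP hx) y hy
  obtain ⟨W, hW⟩ : ∃ W, W = omega1 M hMcomm := ⟨_, rfl⟩
  have hWmem : ∀ t, t ∈ W ↔ (t ∈ M ∧ t * t = 1) := fun t => by rw [hW]; exact Iff.rfl
  have hWM : W ≤ M := fun t ht => ((hWmem t).mp ht).1
  have hWP : W ≤ P := hWM.trans h.hMP
  have hW2 : ∀ t ∈ W, t * t = 1 := fun t ht => ((hWmem t).mp ht).2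
  have hWcomm : ∀ x ∈ W, ∀ y ∈ W, x * y = y * x :=
    fun x hx y hy => hMcomm x (hWM hx) y (hWM hy)
  have hWcard : Nat.card W ≤ 4 := hrank W hWP hWcomm hW2
  have hNW : Subgroup.normalizer (M : Set X) ≤ Subgroup.normalizer (W : Set X) := by
    apply le_normalizer_of_conj
    intro g hg t ht
    obtain ⟨ht1, ht2⟩ := (hWmem t).mp ht
    refine (hWmem _).mpr ⟨conj_mem hg ht1, ?_⟩
    have e : g * t * g⁻¹ * (g * t * g⁻¹) = g * (t * t) * g⁻¹ := by group
    rw [e, ht2]; group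
  have hdW := hNW h.hdM
  have hcommW : ∀ x ∈ P, ∀ y ∈ P, x⁻¹ * y⁻¹ * x * y ∈ W := by
    intro x hx y hy
    refine (hWmem _).mpr ⟨hcommM x hx y hy, ?_⟩
    obtain ⟨c, hc⟩ : ∃ c, c = x⁻¹ * y⁻¹ * x * y := ⟨_, rfl⟩
    rw [← hc]
    have hcM : c ∈ M := by rw [hc]; exact hcommM x hx y hy
    have h1 : x * c = y⁻¹ * x * y := by rw [hc]; group
    have h2 : (x * c) * (x * c) = x * x := by
      rw [h1]
      calc y⁻¹ * x * y * (y⁻¹ * x * y) = y⁻¹ * ((x * x) * y) := by group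
        _ = y⁻¹ * (y * (x * x)) := by rw [← hcent y hy (x * x) (hsqM x hx)]
        _ = x * x := by group
    have h3 : (x * c) * (x * c) = x * x * (c * c) := by
      calc (x * c) * (x * c) = x * (c * x) * c := by group
        _ = x * (x * c) * c := by rw [← hcent x hx c hcM]
        _ = x * x * (c * c) := by group
    rw [h3] at h2
    exact mul_left_cancel (a := x * x) (by rw [h2, mul_one])
  have hY : sqIn P W hcommW = P := by
    apply h.hK (sqIn P W hcommW) (fun y hy => hy.1)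
    · have hle := le_normalizer_of_conj
        (Subgroup.normalizer (P : Set X) ⊓ Subgroup.normalizer (W : Set X))
        (sqIn P W hcommW) ?_
      · exact hle ⟨h.hdP, hdW⟩
      · intro g hg y hy
        obtain ⟨hgP, hgW⟩ := Subgroup.mem_inf.mp hg
        refine ⟨conj_mem hgP hy.1, ?_⟩
        have e : g * y * g⁻¹ * (g * y * g⁻¹) = g * (y * y) * g⁻¹ := by group
        rw [e]; exact conj_mem hgW hy.2
    · intro x hx
      have hz : d ^ 3 * x * (d ^ 3)⁻¹ ∈ P := conj_mem h.haP hx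
      refine ⟨P.mul_mem (P.inv_mem hx) hz, ?_⟩
      have hzz : (d ^ 3 * x * (d ^ 3)⁻¹) * (d ^ 3 * x * (d ^ 3)⁻¹) = x * x := by
        calc (d ^ 3 * x * (d ^ 3)⁻¹) * (d ^ 3 * x * (d ^ 3)⁻¹)
            = d ^ 3 * (x * x) * (d ^ 3)⁻¹ := by group
          _ = (x * x) * d ^ 3 * (d ^ 3)⁻¹ := by rw [h.haM (x * x) (hsqM x hx)]
          _ = x * x := by group
      obtain ⟨z, hzdef⟩ : ∃ z, z = d ^ 3 * x * (d ^ 3)⁻¹ := ⟨_, rfl⟩
      rw [← hzdef] at hz hzz ⊢
      have hw : x * z * x⁻¹ * z⁻¹ ∈ W := by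
        have hw' := hcommW x⁻¹ (P.inv_mem hx) z⁻¹ (P.inv_mem hz)
        rwa [inv_inv, inv_inv] at hw'
      have e : x⁻¹ * z * (x⁻¹ * z) = (x * x)⁻¹ * (x * z * x⁻¹ * z⁻¹) * (z * z) := by group
      rw [e, hzz]
      have hcw := hcent (x * x) (P.mul_mem hx hx) _ (hWM hw)
      rw [mul_assoc, ← hcw, inv_mul_cancel_left]
      exact hw
  have hsqW : ∀ x ∈ P, x * x ∈ W := by
    intro x hx
    have hx' : x ∈ sqIn P W hcommW := by rw [hY]; exact hx
    exact hx'.2
  have hPW : IsPGroup 2 W := h.hP.to_le hWP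
  obtain ⟨i, hi⟩ := IsPGroup.iff_card.mp hPW
  have hi2 : i ≤ 2 := by
    by_contra hcon
    have h8 : 2 ^ 3 ≤ 2 ^ i := Nat.pow_le_pow_right (by norm_num) (by omega)
    omega
  have hMpos : 0 < Nat.card M := Nat.card_pos
  have hPpos : 0 < Nat.card P := Nat.card_pos
  interval_cases i
  · -- `|W| = 1`
    have hbot : W = ⊥ := Subgroup.card_eq_one.mp (by simpa using hi)
    have hP2 : ∀ x ∈ P, x * x = 1 := fun x hx => by
      have hx' := hsqW x hx
      rw [hbot, Subgroup.mem_bot] at hx'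
      exact hx'
    have hPc : ∀ x ∈ P, ∀ y ∈ P, x * y = y * x := by
      intro x hx y hy
      have h1 := hP2 (x * y) (P.mul_mem hx hy)
      calc x * y = x * ((x * y) * (x * y)) * y := by rw [h1, mul_one]
        _ = (x * x) * (y * x) * (y * y) := by group
        _ = y * x := by rw [hP2 x hx, hP2 y hy, one_mul, mul_one]
    have h4 := hrank P le_rfl hPc hP2
    have h5 := Nat.le_of_dvd hPpos h64
    omega
  · -- `|W| = 2`
    have hcard2 : Nat.card W = 2 := by simpa using hi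
    obtain ⟨t, ht, ht1⟩ : ∃ t, t ∈ W ∧ t ≠ 1 := by
      by_contra hcon
      push Not at hcon
      have hbot : W = ⊥ := by
        rw [eq_bot_iff]; intro x hx; exact Subgroup.mem_bot.mpr (hcon x hx)
      rw [hbot, Subgroup.card_bot] at hcard2
      omega
    have ht' : d * t * d⁻¹ ∈ W := conj_mem hdW ht
    have ht'1 : d * t * d⁻¹ ≠ 1 := by
      intro h1
      apply ht1
      have e : t = d⁻¹ * (d * t * d⁻¹) * d := by group
      rw [e, h1]; group
    obtain ⟨y, hy, huniq⟩ := (Nat.card_eq_two_iff' (1 : W)).mp hcard2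
    have e1 : (⟨t, ht⟩ : W) = y := huniq _ (fun h => ht1 (congrArg Subtype.val h))
    have e2 : (⟨d * t * d⁻¹, ht'⟩ : W) = y :=
      huniq _ (fun h => ht'1 (congrArg Subtype.val h))
    have e3 : d * t * d⁻¹ = t := congrArg Subtype.val (e2.trans e1.symm)
    apply ht1
    apply hfpf t (hWP ht)
    calc d * t = (d * t * d⁻¹) * d := by group
      _ = t * d := by rw [e3]
  · -- `|W| = 4`
    have hcard4 : Nat.card W = 4 := by simpa using hi
    obtain ⟨j, hj⟩ := IsPGroup.iff_card.mp h.hP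
    have h4M : 4 ∣ Nat.card M := by rw [← hcard4]; exact Subgroup.card_dvd_of_le hWM
    have h8 : 8 ≤ j := by
      have h256 : 2 ^ 8 ∣ 2 ^ j := by
        rw [← hj]
        obtain ⟨c, hc⟩ := h4M
        refine dvd_trans ?_ h64
        rw [hc]; exact ⟨c, by ring⟩
      exact (Nat.pow_dvd_pow_iff_le_right (by norm_num)).mp h256
    have hc1 : ∀ w ∈ W.subgroupOf P, ∀ x : P, w * x = x * w := by
      rintro ⟨w, hwP⟩ hw ⟨x, hx⟩
      rw [Subgroup.mem_subgroupOf] at hw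
      apply Subtype.ext
      exact (hcent x hx w (hWM hw)).symm
    have hc2 : ∀ w ∈ W.subgroupOf P, w * w = 1 := by
      rintro ⟨w, hwP⟩ hw
      rw [Subgroup.mem_subgroupOf] at hw
      apply Subtype.ext
      exact hW2 w hw
    have hc3 : Nat.card (W.subgroupOf P) = 4 := by
      rw [Nat.card_congr (Subgroup.subgroupOfEquivOfLe hWP).toEquiv, hcard4]
    have hc4 : ∀ x : P, x * x ∈ W.subgroupOf P := by
      rintro ⟨x, hx⟩
      rw [Subgroup.mem_subgroupOf]
      exact hsqW x hx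
    obtain ⟨y, hyW, hy2⟩ := QuadZero.exists_involution_not_mem (G := P) (W.subgroupOf P)
      hc1 hc2 hc3 hc4 j hj h8
    · have hyP : (y : X) ∈ P := y.2
      have hy2' : (y : X) * y = 1 := congrArg Subtype.val hy2
      have hyW' : (y : X) ∉ W := fun hmem => hyW (Subgroup.mem_subgroupOf.mpr hmem)
      have hgen : ∀ s ∈ (W : Set X) ∪ {(y : X)}, ∀ t ∈ (W : Set X) ∪ {(y : X)},
          s * t = t * s := by
        rintro s (hs | hs) t (ht | ht)
        · exact hWcomm s hs t ht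
        · rw [Set.mem_singleton_iff] at ht
          rw [ht]; exact (hcent y hyP s (hWM hs)).symm
        · rw [Set.mem_singleton_iff] at hs
          rw [hs]; exact hcent y hyP t (hWM ht)
        · rw [Set.mem_singleton_iff] at hs ht
          rw [hs, ht]
      have hBP : Subgroup.closure ((W : Set X) ∪ {(y : X)}) ≤ P := by
        rw [Subgroup.closure_le]
        rintro s (hs | hs)
        · exact hWP hs
        · rw [Set.mem_singleton_iff] at hs
          rw [hs]; exact hyP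
      have hBcomm : ∀ s ∈ Subgroup.closure ((W : Set X) ∪ {(y : X)}),
          ∀ t ∈ Subgroup.closure ((W : Set X) ∪ {(y : X)}), s * t = t * s := by
        have h1 : Subgroup.closure ((W : Set X) ∪ {(y : X)}) ≤
            Subgroup.centralizer ((W : Set X) ∪ {(y : X)}) := by
          rw [Subgroup.closure_le]
          intro s hs
          rw [SetLike.mem_coe, Subgroup.mem_centralizer_iff]
          intro t ht
          exact hgen t ht s hs
        have h2 : Subgroup.closure ((W : Set X) ∪ {(y : X)}) ≤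
            Subgroup.centralizer (Subgroup.closure ((W : Set X) ∪ {(y : X)}) : Set X) := by
          rw [Subgroup.closure_le]
          intro s hs
          rw [SetLike.mem_coe, Subgroup.mem_centralizer_iff]
          intro t ht
          exact (Subgroup.mem_centralizer_iff.mp (h1 ht) s hs).symm
        intro s hs t ht
        exact (Subgroup.mem_centralizer_iff.mp (h2 ht) s hs)
      have hEP : omega1 _ hBcomm ≤ P := fun t ht => hBP ht.1
      have hEcard := hrank (omega1 _ hBcomm) hEP (fun s hs t ht => hBcomm s hs.1 t ht.1)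
        (fun t ht => ht.2)
      have hWE : W ≤ omega1 _ hBcomm := fun t ht =>
        ⟨Subgroup.subset_closure (Or.inl ht), hW2 t ht⟩
      have hEW : W = omega1 _ hBcomm :=
        Subgroup.eq_of_le_of_card_ge hWE (by rw [hcard4]; exact hEcard)
      apply hyW'
      rw [hEW]
      exact ⟨Subgroup.subset_closure (Or.inr rfl), hy2'⟩

/-- Inductive step. -/
theorem core [Finite X] (d : X) (n : ℕ) (hd : d ^ 3 ^ n = 1) (P : Subgroup X)
    (hP : IsPGroup 2 P) (hdP : d ∈ Subgroup.normalizer (P : Set X))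
    (hfpf : ∀ x ∈ P, d * x = x * d → x = 1)
    (hrank : ∀ E : Subgroup X, E ≤ P → (∀ x ∈ E, ∀ y ∈ E, x * y = y * x) →
      (∀ x ∈ E, x * x = 1) → Nat.card E ≤ 4)
    (hIH : ∀ Q : Subgroup X, Q ≤ P → Q ≠ P → d ∈ Subgroup.normalizer (Q : Set X) →
      ∀ x ∈ Q, d ^ 3 * x = x * d ^ 3) :
    ∀ x ∈ P, d ^ 3 * x = x * d ^ 3 := by
  by_contra hnc
  have ha3 : (d ^ 3) ^ 3 ^ n = 1 := by rw [← pow_mul, mul_comm, pow_mul, hd, one_pow]
  have haP : d ^ 3 ∈ Subgroup.normalizer (P : Set X) := Subgroup.pow_mem _ hdP 3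
  have hK : ∀ Q : Subgroup X, Q ≤ P → d ∈ Subgroup.normalizer (Q : Set X) →
      (∀ x ∈ P, x⁻¹ * (d ^ 3 * x * (d ^ 3)⁻¹) ∈ Q) → Q = P := by
    intro Q hQP hdQ hc
    by_contra hQ
    exact hnc (centralizes_of_comm_mem (d ^ 3) n ha3 P Q hP hQP (hIH Q hQP hQ hdQ) hc)
  have hPne : P ≠ ⊥ := by
    intro hbot
    apply hnc
    intro x hx
    rw [hbot, Subgroup.mem_bot] at hx
    rw [hx, mul_one, one_mul]
  obtain ⟨M, hMP, hMne, hdM, hPM, hMmax⟩ := exists_max_inv_normal d P hPne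
  have hS : Setup d (d ^ 3) P M :=
    ⟨hP, hdP, haP, hK, hMP, hMne, hdM, hPM, hMmax, hIH M hMP hMne hdM⟩
  exact hS.false n hd hfpf hrank

/-- A 3-element `d` normalizing a 2-group `P` of rank at most 2 with `C_P(d) = 1`: then `d ^ 3`
centralizes `P`. -/
theorem fpf3 [Finite X] (d : X) (n : ℕ) (hd : d ^ 3 ^ n = 1) :
    ∀ (m : ℕ) (P : Subgroup X), Nat.card P = m → IsPGroup 2 P →
      d ∈ Subgroup.normalizer (P : Set X) → (∀ x ∈ P, d * x = x * d → x = 1) →
      (∀ E : Subgroup X, E ≤ P → (∀ x ∈ E, ∀ y ∈ E, x * y = y * x) →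
        (∀ x ∈ E, x * x = 1) → Nat.card E ≤ 4) →
      ∀ x ∈ P, d ^ 3 * x = x * d ^ 3 := by
  intro m
  induction m using Nat.strong_induction_on with
  | _ m ih =>
    intro P hm hP hdP hfpf hrank
    refine core d n hd P hP hdP hfpf hrank ?_
    intro Q hQP hQne hdQ
    refine ih (Nat.card Q) ?_ Q rfl (hP.to_le hQP) hdQ (fun x hx => hfpf x (hQP hx))
      (fun E hE => hrank E (hE.trans hQP))
    rw [← hm]
    by_contra hcon
    push Not at hcon
    exact hQne (Subgroup.eq_of_le_of_card_ge hQP hcon)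

end Main

end Cfsg.Agent.Lib.Helper64.Fpf3
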