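import Mathlib
import Cfsg.Agent.Lib.Helper10.Card

set_option autoImplicit false

/-!
Kegel's lemma on permutable `p`-subgroups: if every conjugate of the `p`-subgroup `X` permutes
with every conjugate of the `p`-subgroup `Y`, then either the group has a nontrivial normal
`p`-subgroup, or the normal closures of `X` and `Y` centralize each other.
-/

namespace Cfsg.Agent.Lib.Helper64.Kegel

open Pointwise

variable {G : Type*} [Group G]

/-- membership in a conjugate subgroup -/
theorem mem_conj_smul (g x : G) (H : Subgroup G) :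
    x ∈ MulAut.conj g • H ↔ g⁻¹ * x * g ∈ H := by
  rw [Subgroup.mem_pointwise_smul_iff_inv_smul_mem]
  simp [MulAut.smul_def]

/-- a conjugate of a member of `H` lies in the conjugate subgroup -/
theorem conj_mem_conj_smul (g x : G) (H : Subgroup G) (hx : x ∈ H) :
    g * x * g⁻¹ ∈ MulAut.conj g • H := by
  rw [mem_conj_smul]
  have : g⁻¹ * (g * x * g⁻¹) * g = x := by group
  rw [this]; exact hx

/-- a subgroup stable under conjugation by `a` and `a⁻¹` is fixed by `a` -/
theorem conj_smul_eq_of_forall (H : Subgroup G) (a : G) (h1 : ∀ y ∈ H, a * y * a⁻¹ ∈ H)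
    (h2 : ∀ y ∈ H, a⁻¹ * y * a ∈ H) : MulAut.conj a • H = H := by
  ext x
  rw [mem_conj_smul]
  constructor
  · intro hx
    have := h1 _ hx
    have e : a * (a⁻¹ * x * a) * a⁻¹ = x := by group
    rwa [e] at this
  · intro hx
    exact h2 x hx

/-- `H` and `K` permute: `HK ⊆ KH` -/
def Perm (H K : Subgroup G) : Prop :=
  ∀ h ∈ H, ∀ k ∈ K, ∃ k' ∈ K, ∃ h' ∈ H, h * k = k' * h'

theorem Perm.symm' {H K : Subgroup G} (hp : Perm H K) :
    ∀ h ∈ H, ∀ k ∈ K, ∃ k' ∈ K, ∃ h' ∈ H, k * h = h' * k' := by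
  intro h hh k hk
  obtain ⟨k', hk', h', hh', e⟩ := hp h⁻¹ (H.inv_mem hh) k⁻¹ (K.inv_mem hk)
  refine ⟨k'⁻¹, K.inv_mem hk', h'⁻¹, H.inv_mem hh', ?_⟩
  have : k * h = (h⁻¹ * k⁻¹)⁻¹ := by group
  rw [this, e]; group

/-- if the product set of `H` and `K` is a subgroup, they permute -/
theorem perm_of_mul_eq {H K S : Subgroup G} (hS : (S : Set G) = (H : Set G) * (K : Set G)) :
    Perm H K := by
  intro h hh k hk
  have h1 : h * k ∈ (S : Set G) := by rw [hS]; exact Set.mul_mem_mul hh hk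
  have h2 : (h * k)⁻¹ ∈ (S : Set G) := S.inv_mem h1
  rw [hS] at h2
  obtain ⟨x, hx, y, hy, e⟩ := h2
  refine ⟨y⁻¹, K.inv_mem hy, x⁻¹, H.inv_mem hx, ?_⟩
  have e' : x * y = (h * k)⁻¹ := e
  have : h * k = (x * y)⁻¹ := by rw [e', inv_inv]
  rw [this]; group

/-- permutability is preserved by simultaneous conjugation -/
theorem Perm.conj {H K : Subgroup G} (hp : Perm H K) (u : G) :
    Perm (MulAut.conj u • H) (MulAut.conj u • K) := by
  intro h hh k hk
  rw [mem_conj_smul] at hh hk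
  obtain ⟨k', hk', h', hh', e⟩ := hp _ hh _ hk
  refine ⟨u * k' * u⁻¹, conj_mem_conj_smul u k' K hk', u * h' * u⁻¹,
    conj_mem_conj_smul u h' H hh', ?_⟩
  have e1 : h * k = u * ((u⁻¹ * h * u) * (u⁻¹ * k * u)) * u⁻¹ := by group
  rw [e1, e]; group

/-- a subgroup generated by subgroups permuting with `K` permutes with `K` -/
theorem perm_closure (T : Set G) (K J : Subgroup G) (hJ : J = Subgroup.closure T)
    (hT : ∀ x ∈ T, ∃ H : Subgroup G, x ∈ H ∧ H ≤ J ∧ Perm H K) : Perm J K := by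
  have key : ∀ x ∈ Subgroup.closure T,
      (∀ k ∈ K, ∃ k' ∈ K, ∃ h' ∈ J, x * k = k' * h') ∧
      (∀ k ∈ K, ∃ k' ∈ K, ∃ h' ∈ J, k * x = h' * k') := by
    intro x hx
    induction hx using Subgroup.closure_induction with
    | mem x hx =>
      obtain ⟨H, hxH, hHJ, hperm⟩ := hT x hx
      constructor
      · intro k hk
        obtain ⟨k', hk', h', hh', e⟩ := hperm x hxH k hk
        exact ⟨k', hk', h', hHJ hh', e⟩
      · intro k hk
        obtain ⟨k', hk', h', hh', e⟩ := hperm.symm' x hxH k hk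
        exact ⟨k', hk', h', hHJ hh', e⟩
    | one =>
      constructor
      · intro k hk
        exact ⟨k, hk, 1, J.one_mem, by group⟩
      · intro k hk
        exact ⟨k, hk, 1, J.one_mem, by group⟩
    | mul x y _ _ ihx ihy =>
      constructor
      · intro k hk
        obtain ⟨k1, hk1, h1, hh1, e1⟩ := ihy.1 k hk
        obtain ⟨k2, hk2, h2, hh2, e2⟩ := ihx.1 k1 hk1
        refine ⟨k2, hk2, h2 * h1, J.mul_mem hh2 hh1, ?_⟩
        rw [mul_assoc, e1, ← mul_assoc, e2, mul_assoc]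
      · intro k hk
        obtain ⟨k1, hk1, h1, hh1, e1⟩ := ihx.2 k hk
        obtain ⟨k2, hk2, h2, hh2, e2⟩ := ihy.2 k1 hk1
        refine ⟨k2, hk2, h1 * h2, J.mul_mem hh1 hh2, ?_⟩
        rw [← mul_assoc, e1, mul_assoc, e2, mul_assoc]
    | inv x _ ihx =>
      constructor
      · intro k hk
        obtain ⟨k1, hk1, h1, hh1, e1⟩ := ihx.2 k⁻¹ (K.inv_mem hk)
        refine ⟨k1⁻¹, K.inv_mem hk1, h1⁻¹, J.inv_mem hh1, ?_⟩
        have : x⁻¹ * k = (k⁻¹ * x)⁻¹ := by group
        rw [this, e1]; group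
      · intro k hk
        obtain ⟨k1, hk1, h1, hh1, e1⟩ := ihx.1 k⁻¹ (K.inv_mem hk)
        refine ⟨k1⁻¹, K.inv_mem hk1, h1⁻¹, J.inv_mem hh1, ?_⟩
        have : k * x⁻¹ = (x * k⁻¹)⁻¹ := by group
        rw [this, e1]; group
  intro h hh k hk
  rw [hJ] at hh
  exact (key h hh).1 k hk

/-- the join of two permuting `p`-subgroups is a `p`-group -/
theorem isPGroup_sup_of_perm [Finite G] (p : ℕ) [Fact p.Prime] {H K : Subgroup G}
    (hH : IsPGroup p H) (hK : IsPGroup p K) (hperm : Perm H K) : IsPGroup p (H ⊔ K : Subgroup G) := by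
  have hpp : p.Prime := Fact.out
  obtain ⟨S, hS⟩ : ∃ S : Subgroup G, (S : Set G) = (H : Set G) * (K : Set G) := by
    refine ⟨{ carrier := (H : Set G) * (K : Set G)
              mul_mem' := ?_
              one_mem' := ?_
              inv_mem' := ?_ }, rfl⟩
    · rintro _ _ ⟨h1, hh1, k1, hk1, rfl⟩ ⟨h2, hh2, k2, hk2, rfl⟩
      obtain ⟨k', hk', h', hh', e⟩ := hperm.symm' h2 hh2 k1 hk1
      refine ⟨h1 * h', H.mul_mem hh1 hh', k' * k2, K.mul_mem hk' hk2, ?_⟩
      change h1 * h' * (k' * k2) = h1 * k1 * (h2 * k2)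
      have : h1 * k1 * (h2 * k2) = h1 * (k1 * h2) * k2 := by group
      rw [this, e]; group
    · exact ⟨1, H.one_mem, 1, K.one_mem, by simp⟩
    · rintro _ ⟨h1, hh1, k1, hk1, rfl⟩
      obtain ⟨k', hk', h', hh', e⟩ := hperm.symm' h1⁻¹ (H.inv_mem hh1) k1⁻¹ (K.inv_mem hk1)
      refine ⟨h', hh', k', hk', ?_⟩
      change h' * k' = (h1 * k1)⁻¹
      rw [← e]; group
  have hle : H ⊔ K ≤ S := by
    apply sup_le
    · intro x hx
      have : x ∈ (S : Set G) := by rw [hS]; exact ⟨x, hx, 1, K.one_mem, by simp⟩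
      exact this
    · intro x hx
      have : x ∈ (S : Set G) := by rw [hS]; exact ⟨1, H.one_mem, x, hx, by simp⟩
      exact this
  have hcard := Cfsg.Agent.Lib.Helper10.card_mul_card_inf H K
  have hS' : Nat.card S = Nat.card ((H : Set G) * (K : Set G) : Set G) := by
    rw [← hS]; rfl
  rw [← hS'] at hcard
  obtain ⟨a, ha⟩ := IsPGroup.iff_card.mp hH
  obtain ⟨b, hb⟩ := IsPGroup.iff_card.mp hK
  have hdvd : Nat.card S ∣ p ^ (a + b) := by
    rw [pow_add, ← ha, ← hb, ← hcard]
    exact Dvd.intro _ rfl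
  obtain ⟨c, -, hc⟩ := (Nat.dvd_prime_pow hpp).mp hdvd
  exact (IsPGroup.of_card hc).to_le hle

section main

variable [Finite G] (p : ℕ) [Fact p.Prime] (X Y : Subgroup G)

/-- the elements of the conjugates of `X` lying in `J` -/
def wcS (X J : Subgroup G) : Set G :=
  {x | ∃ g : G, MulAut.conj g • X ≤ J ∧ x ∈ MulAut.conj g • X}

/-- the weak closure of `X` in `J` -/
def wc (X J : Subgroup G) : Subgroup G := Subgroup.closure (wcS X J)

omit [Finite G] in
theorem wc_le (J : Subgroup G) : wc X J ≤ J := by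
  unfold wc
  rw [Subgroup.closure_le]
  rintro x ⟨g, hg, hx⟩
  exact hg hx

omit [Finite G] in
theorem le_wc (J : Subgroup G) (g : G) (hg : MulAut.conj g • X ≤ J) : MulAut.conj g • X ≤ wc X J := by
  intro x hx
  exact Subgroup.subset_closure ⟨g, hg, hx⟩

omit [Finite G] in
theorem wc_mono {J J' : Subgroup G} (h : J ≤ J') : wc X J ≤ wc X J' := by
  apply Subgroup.closure_mono
  rintro x ⟨g, hg, hx⟩
  exact ⟨g, hg.trans h, hx⟩

omit [Finite G] in
theorem wc_wc (J : Subgroup G) : wc X (wc X J) = wc X J := by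
  apply le_antisymm (wc_le X _)
  apply Subgroup.closure_mono
  rintro x ⟨g, hg, hx⟩
  exact ⟨g, le_wc X J g hg, hx⟩

omit [Finite G] in
theorem conj_mem_wc (J : Subgroup G) (s : G) (hs : s ∈ J) (x : G) (hx : x ∈ wc X J) :
    s * x * s⁻¹ ∈ wc X J := by
  have h1 : wc X J ≤ (wc X J).comap (MulAut.conj s).toMonoidHom := by
    unfold wc
    rw [Subgroup.closure_le]
    rintro y ⟨g, hg, hy⟩
    change (MulAut.conj s) y ∈ Subgroup.closure (wcS X J)
    apply Subgroup.subset_closure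
    refine ⟨s * g, ?_, ?_⟩
    · intro z hz
      rw [mem_conj_smul] at hz
      have h2 : g * ((s * g)⁻¹ * z * (s * g)) * g⁻¹ ∈ MulAut.conj g • X :=
        conj_mem_conj_smul g _ X hz
      have h3 := hg h2
      have h4 : z = s * (g * ((s * g)⁻¹ * z * (s * g)) * g⁻¹) * s⁻¹ := by group
      rw [h4]
      exact J.mul_mem (J.mul_mem hs h3) (J.inv_mem hs)
    · rw [mem_conj_smul] at hy ⊢
      rw [MulAut.conj_apply]
      have h2 : (s * g)⁻¹ * (s * y * s⁻¹) * (s * g) = g⁻¹ * y * g := by group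
      rw [h2]; exact hy
  have := h1 hx
  rw [Subgroup.mem_comap] at this
  exact this

/-- Kegel: some `p`-subgroup containing `X` is normalized by every conjugate of `Y` -/
theorem exists_normalized_pgroup (hX : IsPGroup p X) (hY : IsPGroup p Y)
    (hperm : ∀ g h : G, Perm (MulAut.conj g • X) (MulAut.conj h • Y)) :
    ∃ R : Subgroup G, IsPGroup p R ∧ X ≤ R ∧
      ∀ h : G, MulAut.conj h • Y ≤ Subgroup.normalizer (R : Set G) := by
  obtain ⟨𝒥, h𝒥⟩ : ∃ 𝒥 : Set (Subgroup G),
      𝒥 = {J : Subgroup G | IsPGroup p J ∧ X ≤ J ∧ wc X J = J} := ⟨_, rfl⟩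
  have hX1 : MulAut.conj (1 : G) • X = X := by
    rw [map_one, one_smul]
  have hXmem : X ∈ 𝒥 := by
    rw [h𝒥]
    refine ⟨hX, le_refl _, le_antisymm (wc_le X X) ?_⟩
    have := le_wc X X 1 (by rw [hX1])
    rwa [hX1] at this
  obtain ⟨R, hR𝒥, hRmax⟩ := Set.exists_max_image 𝒥 (fun J : Subgroup G => Nat.card J)
    (Set.toFinite 𝒥) ⟨X, hXmem⟩
  have hR : IsPGroup p R ∧ X ≤ R ∧ wc X R = R := by
    rw [h𝒥] at hR𝒥; exact hR𝒥
  refine ⟨R, hR.1, hR.2.1, ?_⟩
  intro h
  obtain ⟨Y', hY'⟩ : ∃ Y' : Subgroup G, Y' = MulAut.conj h • Y := ⟨_, rfl⟩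
  rw [← hY']
  have hY'p : IsPGroup p Y' := by
    rw [hY', Subgroup.pointwise_smul_def]
    exact hY.map _
  have hpermR : Perm R Y' := by
    apply perm_closure (wcS X R) Y' R hR.2.2.symm
    rintro x ⟨g, hg, hx⟩
    refine ⟨MulAut.conj g • X, hx, hg, ?_⟩
    rw [hY']
    exact hperm g h
  have hS'p : IsPGroup p (R ⊔ Y' : Subgroup G) := isPGroup_sup_of_perm p hR.1 hY'p hpermR
  obtain ⟨S', hS'⟩ : ∃ S' : Subgroup G, S' = R ⊔ Y' := ⟨_, rfl⟩
  rw [← hS'] at hS'p
  have hRle : R ≤ wc X S' := by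
    calc R = wc X R := hR.2.2.symm
      _ ≤ wc X S' := wc_mono X (by rw [hS']; exact le_sup_left)
  have hmem : wc X S' ∈ 𝒥 := by
    rw [h𝒥]
    exact ⟨hS'p.to_le (wc_le X S'), hR.2.1.trans hRle, wc_wc X S'⟩
  have heq : R = wc X S' := Subgroup.eq_of_le_of_card_ge hRle (hRmax _ hmem)
  intro y hy
  have hyS : y ∈ S' := by rw [hS']; exact Subgroup.mem_sup_right hy
  rw [Subgroup.mem_normalizer_iff]
  intro x
  constructor
  · intro hx
    rw [heq] at hx ⊢
    exact conj_mem_wc X S' y hyS x hx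
  · intro hx
    rw [heq] at hx ⊢
    have := conj_mem_wc X S' y⁻¹ (S'.inv_mem hyS) _ hx
    have e : y⁻¹ * (y * x * y⁻¹) * y⁻¹⁻¹ = x := by group
    rwa [e] at this

/-- Kegel's dichotomy: a nontrivial normal `p`-subgroup, or the normal closures commute -/
theorem kegel_dichotomy (hX : IsPGroup p X) (hY : IsPGroup p Y)
    (hperm : ∀ g h : G, Perm (MulAut.conj g • X) (MulAut.conj h • Y)) :
    (∃ Z : Subgroup G, Z.Normal ∧ Z ≠ ⊥ ∧ IsPGroup p Z) ∨
    (∀ x ∈ Subgroup.normalClosure (X : Set G), ∀ w ∈ Subgroup.normalClosure (Y : Set G),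
      x * w = w * x) := by
  obtain ⟨R, hRp, hXR, hnorm⟩ := exists_normalized_pgroup p X Y hX hY hperm
  obtain ⟨W, hW⟩ : ∃ W : Subgroup G, W = Subgroup.normalClosure (Y : Set G) := ⟨_, rfl⟩
  have hWn : W.Normal := by rw [hW]; infer_instance
  have hWN : W ≤ Subgroup.normalizer (R : Set G) := by
    rw [hW]
    change Subgroup.closure (Group.conjugatesOfSet (Y : Set G)) ≤ _
    rw [Subgroup.closure_le]
    intro c hc
    rw [Group.mem_conjugatesOfSet_iff] at hc
    obtain ⟨d, hd, hconj⟩ := hc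
    obtain ⟨g, hg⟩ := isConj_iff.mp hconj
    apply hnorm g
    rw [← hg]
    exact conj_mem_conj_smul g d Y hd
  rw [← hW]
  by_cases hD : R ⊓ W = ⊥
  · right
    have hcomm : ∀ x ∈ X, ∀ w ∈ W, x * w = w * x := by
      intro x hx w hw
      have h1 : x * w * x⁻¹ * w⁻¹ ∈ R ⊓ W := by
        constructor
        · have h2 : w * x⁻¹ * w⁻¹ ∈ R :=
            (Subgroup.mem_normalizer_iff.mp (hWN hw) x⁻¹).mp (R.inv_mem (hXR hx))
          have h3 : x * w * x⁻¹ * w⁻¹ = x * (w * x⁻¹ * w⁻¹) := by group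
          rw [h3]
          exact R.mul_mem (hXR hx) h2
        · exact W.mul_mem (hWn.conj_mem w hw x) (W.inv_mem hw)
      rw [hD, Subgroup.mem_bot] at h1
      have h4 : x * w = (x * w * x⁻¹ * w⁻¹) * (w * x) := by group
      rw [h4, h1, one_mul]
    have hle : Subgroup.normalClosure (X : Set G) ≤ Subgroup.centralizer (W : Set G) := by
      apply Subgroup.normalClosure_le_normal
      intro x hx
      rw [SetLike.mem_coe, Subgroup.mem_centralizer_iff]
      intro w hw
      exact (hcomm x hx w hw).symm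
    intro x hx w hw
    exact (Subgroup.mem_centralizer_iff.mp (hle hx) w hw).symm
  · left
    obtain ⟨D, hDdef⟩ : ∃ D : Subgroup G, D = R ⊓ W := ⟨_, rfl⟩
    rw [← hDdef] at hD
    have hDW : D ≤ W := by rw [hDdef]; exact inf_le_right
    have hDp : IsPGroup p D := hRp.to_le (by rw [hDdef]; exact inf_le_left)
    have hDnorm : ∀ w ∈ W, ∀ d ∈ D, w * d * w⁻¹ ∈ D := by
      intro w hw d hd
      rw [hDdef] at hd ⊢
      exact ⟨(Subgroup.mem_normalizer_iff.mp (hWN hw) d).mp hd.1, hWn.conj_mem d hd.2 w⟩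
    refine ⟨Subgroup.normalClosure (D : Set G), inferInstance, ?_, ?_⟩
    · intro h
      apply hD
      rw [eq_bot_iff, ← h]
      exact Subgroup.le_normalClosure
    · obtain ⟨T⟩ := (inferInstance : Nonempty (Sylow p W))
      have hle : Subgroup.normalClosure (D : Set G) ≤ (T : Subgroup W).map W.subtype := by
        change Subgroup.closure (Group.conjugatesOfSet (D : Set G)) ≤ _
        rw [Subgroup.closure_le]
        intro c hc
        rw [Group.mem_conjugatesOfSet_iff] at hc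
        obtain ⟨d, hd, hconj⟩ := hc
        obtain ⟨g, hg⟩ := isConj_iff.mp hconj
        obtain ⟨E, hE⟩ : ∃ E : Subgroup W, E = (MulAut.conj g • D).subgroupOf W := ⟨_, rfl⟩
        have hEn : E.Normal := by
          constructor
          intro e he w
          rw [hE, Subgroup.mem_subgroupOf] at he ⊢
          rw [mem_conj_smul] at he ⊢
          have hw' : g⁻¹ * (w : G) * g ∈ W := by
            have := hWn.conj_mem (w : G) w.2 g⁻¹
            rwa [inv_inv] at this
          have h1 := hDnorm _ hw' _ he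
          have h2 : g⁻¹ * ((w * e * w⁻¹ : W) : G) * g =
              g⁻¹ * (w : G) * g * (g⁻¹ * (e : G) * g) * (g⁻¹ * (w : G) * g)⁻¹ := by
            push_cast
            group
          rw [h2]; exact h1
        have hEp : IsPGroup p E := by
          rw [hE]
          have h1 : IsPGroup p (MulAut.conj g • D : Subgroup G) := by
            rw [Subgroup.pointwise_smul_def]
            exact hDp.map _
          exact h1.comap_subtype
        have h1 : IsPGroup p ((T : Subgroup W) ⊔ E : Subgroup W) :=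
          T.isPGroup'.to_sup_of_normal_right hEp
        have h2 := T.is_maximal' h1 le_sup_left
        have hcW : c ∈ W := by
          rw [← hg]; exact hWn.conj_mem d (hDW hd) g
        have hcE : (⟨c, hcW⟩ : W) ∈ E := by
          rw [hE, Subgroup.mem_subgroupOf]
          change c ∈ MulAut.conj g • D
          rw [← hg]
          exact conj_mem_conj_smul g d D hd
        have hcT : (⟨c, hcW⟩ : W) ∈ (T : Subgroup W) := by
          rw [← h2]; exact Subgroup.mem_sup_right hcE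
        exact Subgroup.mem_map.mpr ⟨⟨c, hcW⟩, hcT, rfl⟩
      exact (T.isPGroup'.map W.subtype).to_le hle

end main

end Cfsg.Agent.Lib.Helper64.Kegel
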