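-- helper64: no non-abelian simple group has order 3780 = 2^2 * 3^3 * 5 * 7 (a block order of
-- S0983, for helper91): p = 7, [N(P) : C(P)] = 3, |C(P)| = 35.
import Mathlib
import Cfsg.Agent.Lib.Helper91.SO2Wrap
import Cfsg.Agent.Lib.Helper64.BlockData

set_option autoImplicit false

namespace Cfsg.Agent.Lib.Helper64.Ord3780

open Cfsg.Agent.Lib.Helper17 Cfsg.Agent.Lib.Helper93.SO Cfsg.Agent.Lib.Helper91.SO2
  Cfsg.Agent.Lib.Helper64.BlockData

universe u

/-- the admissible degrees of the non-exceptional characters -/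
theorem list_3780 (f : ℕ) (hf : f ∣ 3780) (hsq : f ^ 2 ≤ 3780) :
    (15 ≤ f ∧ f % 7 = 1 → f = 15 ∨ f = 36) ∧ (20 ≤ f ∧ f % 7 = 6 → f = 20 ∨ f = 27) := by
  have hf' : f ∈ Nat.divisors 3780 := Nat.mem_divisors.mpr ⟨hf, by norm_num⟩
  have key : ∀ f ∈ Nat.divisors 3780, f ^ 2 ≤ 3780 →
      (15 ≤ f ∧ f % 7 = 1 → f = 15 ∨ f = 36) ∧ (20 ≤ f ∧ f % 7 = 6 → f = 20 ∨ f = 27) := by
    decide +kernel
  exact key f hf' hsq

/-- the degree equation has no solution -/
theorem arith_3780 : ∀ x ∈ ([(15, 1), (36, 1), (20, -1), (27, -1)] : List (ℕ × ℤ)),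
    ∀ y ∈ ([(15, 1), (36, 1), (20, -1), (27, -1)] : List (ℕ × ℤ)),
    ∀ f0 ∈ Nat.divisors 3780, 14 ≤ f0 → ∀ ε ∈ ([1, -1] : List ℤ),
      ε * (f0 : ℤ) + 1 + (x.2 * (x.1 : ℤ) + y.2 * (y.1 : ℤ)) ≠ 0 := by
  decide +kernel

/-- the local case `[N(P) : C(P)] = 3`, `|C(P)| = 35` -/
theorem case_3780 {G : Type u} [Group G] [Finite G] [IsSimpleGroup G] (hG : Nat.card G = 3780)
    (P : Sylow 7 G) (hP : Nat.card (P : Subgroup G) = 7)
    (hr : (Subgroup.centralizer ((P : Subgroup G) : Set G)).relIndex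
      (Subgroup.normalizer ((P : Subgroup G) : Set G)) = 3)
    (hC : Nat.card (Subgroup.centralizer ((P : Subgroup G) : Set G)) = 35) : False := by
  have : Fact (Nat.Prime 7) := ⟨by norm_num⟩
  have : Fact (Nat.Prime 5) := ⟨by norm_num⟩
  have hGn : ¬ (Nat.card G).Prime := by rw [hG]; norm_num
  obtain ⟨c', hc'⟩ := exists_prime_orderOf_dvd_card'
    (G := Subgroup.centralizer ((P : Subgroup G) : Set G)) 5 (by rw [hC]; norm_num)
  have hco : orderOf (c' : G) = 5 := by rw [Subgroup.orderOf_coe]; exact hc'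
  obtain ⟨k, f, a, f0, d, δ, hk, hδ, hχ, hf0d, -, hf0, hnorm, hrel⟩ :=
    block_data hGn 7 P hP 3 (by norm_num) hr (c' : G) c'.2 5 (by norm_num) (by norm_num) hco
  rw [hG] at hχ hf0d
  have h2 : (((7 - 1) / 3 : ℕ) : ℤ) = 2 := by norm_num
  rw [h2] at hnorm hrel
  push_cast at hnorm
  have hk2 : k ≤ 2 := by omega
  have hd1 : -1 ≤ d := by
    have := Finset.sum_nonneg (fun i (_ : i ∈ Finset.univ) => sq_nonneg (a i))
    nlinarith [sq_nonneg (d - δ)]
  have hd2 : d ≤ 1 := by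
    have := Finset.sum_nonneg (fun i (_ : i ∈ Finset.univ) => sq_nonneg (a i))
    nlinarith [sq_nonneg (d - δ)]
  -- the candidates for a non-exceptional character
  have hcand : ∀ i, (a i = 1 ∨ a i = -1) →
      (f i, a i) ∈ ([(15, 1), (36, 1), (20, -1), (27, -1)] : List (ℕ × ℤ)) := by
    intro i hai
    obtain ⟨-, hfd, hfs, n, T, hT, hn, hfe⟩ := hχ i
    obtain ⟨h1, h2⟩ := list_3780 (f i) hfd hfs
    push_cast at hn hfe
    rcases hai with h | h
    · rw [h] at hn hfe ⊢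
      rcases h1 (by omega) with h3 | h3 <;> rw [h3] <;> simp
    · rw [h] at hn hfe ⊢
      rcases h2 (by omega) with h3 | h3 <;> rw [h3] <;> simp
  have hf0d' : f0 ∈ Nat.divisors 3780 := Nat.mem_divisors.mpr ⟨hf0d, by norm_num⟩
  interval_cases k
  · simp only [Finset.univ_eq_empty, Finset.sum_empty] at hnorm
    rcases hδ with rfl | rfl <;> interval_cases d <;> omega
  · simp only [Fin.sum_univ_one] at hnorm
    have ha0 := (hχ 0).1
    have ha1 : -1 ≤ a 0 := by nlinarith [sq_nonneg (d - δ), sq_nonneg d]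
    have ha2 : a 0 ≤ 1 := by nlinarith [sq_nonneg (d - δ), sq_nonneg d]
    obtain ⟨b, hb⟩ : ∃ b, b = a 0 := ⟨_, rfl⟩
    rw [← hb] at ha0 ha1 ha2 hnorm
    rcases hδ with rfl | rfl <;> interval_cases d <;> interval_cases b <;> omega
  · simp only [Fin.sum_univ_two] at hnorm hrel
    have ha0 := (hχ 0).1
    have ha1 := (hχ 1).1
    obtain ⟨b0, hb0⟩ : ∃ b, b = a 0 := ⟨_, rfl⟩
    obtain ⟨b1, hb1⟩ : ∃ b, b = a 1 := ⟨_, rfl⟩
    have hc0 := hcand 0
    have hc1 := hcand 1
    rw [← hb0] at ha0 hnorm hrel hc0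
    rw [← hb1] at ha1 hnorm hrel hc1
    have hb0l : -1 ≤ b0 := by nlinarith [sq_nonneg (d - δ), sq_nonneg d, sq_nonneg b1]
    have hb0u : b0 ≤ 1 := by nlinarith [sq_nonneg (d - δ), sq_nonneg d, sq_nonneg b1]
    have hb1l : -1 ≤ b1 := by nlinarith [sq_nonneg (d - δ), sq_nonneg d, sq_nonneg b0]
    have hb1u : b1 ≤ 1 := by nlinarith [sq_nonneg (d - δ), sq_nonneg d, sq_nonneg b0]
    have hb0' : b0 = 1 ∨ b0 = -1 := by
      interval_cases b0
      · exact Or.inr rfl
      · exact absurd rfl ha0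
      · exact Or.inl rfl
    have hb1' : b1 = 1 ∨ b1 = -1 := by
      interval_cases b1
      · exact Or.inr rfl
      · exact absurd rfl ha1
      · exact Or.inl rfl
    -- the coefficient of the exceptional degree is `±1`
    have hε : (2 * d - δ = 1 ∨ 2 * d - δ = -1) := by
      rcases hδ with rfl | rfl <;> rcases hb0' with rfl | rfl <;> rcases hb1' with rfl | rfl <;>
        interval_cases d <;> omega
    have hε' : (2 * d - δ) ∈ ([1, -1] : List ℤ) := by
      rcases hε with h | h <;> rw [h] <;> simp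
    exact arith_3780 _ (hc0 hb0') _ (hc1 hb1') f0 hf0d' (by omega) _ hε' hrel

/-- No non-abelian simple group has order `3780`. -/
theorem noSimple_3780 : NoSimple.{u} 3780 :=
  noSimple_of_cases 3780 7 2 540 (by norm_num) (by norm_num) (by norm_num) (by norm_num)
    (by norm_num) (by norm_num) (by norm_num) [(3, 35)] (by decide +kernel)
    (by
      intro rc hrc G _ _ _ hG P hP hr hC
      simp only [List.mem_singleton] at hrc
      subst hrc
      exact case_3780 hG P hP hr hC)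

end Cfsg.Agent.Lib.Helper64.Ord3780
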