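import Mathlib
import Cfsg.Prelude.Def_Perm
import Cfsg.Agent.Lib.Helper5.Zass
import Cfsg.Agent.Lib.Helper90.ZG

/-!
# The affine case of the Zassenhaus-type theorem on groups of degree `p + 1`

A regular normal subgroup `M` of a group `H ≤ Sym(Option (ZMod p))` containing the translation
`x ↦ x + 1` makes `Option (ZMod p)` into a field of order `p + 1 = 2 ^ q`, and `H` acts
semi-affinely.
-/

set_option autoImplicit false

namespace Cfsg.Agent.Lib.Helper64.ZGAffine

open Equiv Cfsg.Agent.Lib.Helper5.Zass Cfsg.Agent.Lib.Helper90.ZG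

/-- The data of a regular elementary abelian `2`-group of permutations of `Option (ZMod p)`
normalised by the translations: `μ x` is the element sending `none` to `x`. -/
structure AData (p : ℕ) where
  μ : Option (ZMod p) → Perm (Option (ZMod p))
  μ_none : ∀ x, μ x none = x
  μ_zero : μ none = 1
  μ_mul : ∀ x y, μ (μ x y) = μ x * μ y
  μ_sq : ∀ x, μ x * μ x = 1
  μ_tr : ∀ i x, μ (Tr i x) = Tr i * μ x * (Tr i)⁻¹

/-- multiplication on `Option (ZMod p)`: `some i * some j = some (i + j)`, `none` absorbing. -/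
def omul {p : ℕ} : Option (ZMod p) → Option (ZMod p) → Option (ZMod p)
  | some i, some j => some (i + j)
  | _, _ => none

theorem omul_some {p : ℕ} (i : ZMod p) (w : Option (ZMod p)) : omul (some i) w = Tr i w := by
  cases w with
  | none => rfl
  | some j => simp [omul, add_comm]

/-- The field with underlying set `Option (ZMod p)` attached to `D`. -/
def FX {p : ℕ} (_D : AData p) : Type := Option (ZMod p)

theorem ax_add_assoc {p : ℕ} (D : AData p) (a b c : Option (ZMod p)) :
    D.μ (D.μ a b) c = D.μ a (D.μ b c) := by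
  rw [D.μ_mul, Perm.mul_apply]

theorem ax_zero_add {p : ℕ} (D : AData p) (a : Option (ZMod p)) : D.μ none a = a := by
  rw [D.μ_zero, Perm.one_apply]

theorem ax_neg_add {p : ℕ} (D : AData p) (a : Option (ZMod p)) : D.μ a a = none := by
  have h1 : D.μ a a = (D.μ a * D.μ a) none := by
    rw [Perm.mul_apply, D.μ_none]
  rw [h1, D.μ_sq, Perm.one_apply]

theorem ax_mul_assoc {p : ℕ} (a b c : Option (ZMod p)) :
    omul (omul a b) c = omul a (omul b c) := by
  cases a <;> cases b <;> cases c <;> simp [omul, add_assoc]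

theorem ax_mul_comm {p : ℕ} (a b : Option (ZMod p)) : omul a b = omul b a := by
  cases a <;> cases b <;> simp [omul, add_comm]

theorem ax_one_mul {p : ℕ} (a : Option (ZMod p)) : omul (some 0) a = a := by
  cases a <;> simp [omul]

theorem ax_distrib {p : ℕ} (D : AData p) (a b c : Option (ZMod p)) :
    omul a (D.μ b c) = D.μ (omul a b) (omul a c) := by
  cases a with
  | none =>
    show (none : Option (ZMod p)) = D.μ none none
    rw [D.μ_none]
  | some i =>
    rw [omul_some, omul_some, omul_some, D.μ_tr, Perm.mul_apply, Perm.mul_apply, pinv_apply]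

/-- the commutative ring structure. -/
@[reducible] def commRingFX {p : ℕ} (D : AData p) : CommRing (FX D) :=
  @CommRing.ofMinimalAxioms (FX D) ⟨fun x y => D.μ x y⟩ ⟨omul⟩ ⟨fun x => x⟩
    ⟨(none : Option (ZMod p))⟩ ⟨(some 0 : Option (ZMod p))⟩
    (ax_add_assoc D) (ax_zero_add D) (ax_neg_add D) ax_mul_assoc ax_mul_comm ax_one_mul
    (ax_distrib D)

theorem isField_FX {p : ℕ} (D : AData p) : @IsField (FX D) (commRingFX D).toSemiring := by
  have hne : (none : Option (ZMod p)) ≠ some 0 := by simp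
  refine @IsField.mk (FX D) (commRingFX D).toSemiring
    ⟨(none : Option (ZMod p)), (some 0 : Option (ZMod p)), hne⟩ ax_mul_comm ?_
  intro a ha
  have key : ∀ a : Option (ZMod p), a ≠ none → ∃ b : Option (ZMod p), omul a b = some 0 := by
    intro a ha
    obtain ⟨i, hi⟩ := Option.ne_none_iff_exists'.1 ha
    refine ⟨some (-i), ?_⟩
    rw [hi]
    simp [omul]
  exact key a ha

noncomputable instance instFieldFX {p : ℕ} (D : AData p) : Field (FX D) :=
  @IsField.toField (FX D) (commRingFX D).toRing (isField_FX D)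

theorem fx_add {p : ℕ} (D : AData p) (x y : FX D) : x + y = D.μ x y := rfl

theorem fx_mul {p : ℕ} (D : AData p) (x y : FX D) : x * y = omul x y := rfl

theorem fx_zero {p : ℕ} (D : AData p) : (0 : FX D) = (none : Option (ZMod p)) := rfl

theorem fx_one {p : ℕ} (D : AData p) : (1 : FX D) = (some 0 : Option (ZMod p)) := rfl

instance instFintypeFX {p : ℕ} [NeZero p] (D : AData p) : Fintype (FX D) :=
  inferInstanceAs (Fintype (Option (ZMod p)))

theorem card_FX {p : ℕ} [NeZero p] (D : AData p) : Fintype.card (FX D) = p + 1 := by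
  show Fintype.card (Option (ZMod p)) = p + 1
  rw [Fintype.card_option, ZMod.card]

section main

variable {p d : ℕ} [Fact p.Prime] {H : Subgroup (Perm (Option (ZMod p)))}

theorem exists_data (hH : ZGood p d H) (hp2 : p ≠ 2) (M : Subgroup (Perm (Option (ZMod p))))
    (hMn : ∀ h ∈ H, ∀ m ∈ M, h * m * h⁻¹ ∈ M) (hMc : Nat.card M = p + 1)
    (hMreg : ∀ m ∈ M, m none = none → m = 1) :
    ∃ D : AData p, (∀ x, D.μ x ∈ M) ∧ (∀ m ∈ M, m = D.μ (m none)) ∧
      (∀ g ∈ H, g none = none → ∀ x, D.μ (g x) = g * D.μ x * g⁻¹) := by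
  classical
  have hp : p.Prime := Fact.out
  have huniq : ∀ m ∈ M, ∀ m' ∈ M, m none = m' none → m = m' := by
    intro m hm m' hm' h
    have h1 : (m'⁻¹ * m) none = none := by
      rw [Perm.mul_apply, h, pinv_apply]
    have h2 := hMreg _ (M.mul_mem (M.inv_mem hm') hm) h1
    exact (inv_mul_eq_one.mp h2).symm
  have hsurj : ∀ x : Option (ZMod p), ∃ m ∈ M, m none = x := by
    let f : M → Option (ZMod p) := fun m => (m : Perm (Option (ZMod p))) none
    have hf : Function.Injective f := by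
      intro m m' h
      exact Subtype.ext (huniq m.1 m.2 m'.1 m'.2 h)
    have hcard : Nat.card M = Nat.card (Option (ZMod p)) := by
      rw [hMc, Nat.card_eq_fintype_card, Fintype.card_option, ZMod.card]
    have hbij : Function.Bijective f :=
      (Nat.bijective_iff_injective_and_card f).mpr ⟨hf, hcard⟩
    intro x
    obtain ⟨m, hm⟩ := hbij.2 x
    exact ⟨m.1, m.2, hm⟩
  choose μ hμM hμ using hsurj
  have hμeq : ∀ m ∈ M, m = μ (m none) := fun m hm => huniq m hm _ (hμM _) (hμ _).symm
  have hconj : ∀ g ∈ H, g none = none → ∀ x, μ (g x) = g * μ x * g⁻¹ := by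
    intro g hg hfix x
    apply huniq _ (hμM _) _ (hMn g hg _ (hμM x))
    have h1 : g⁻¹ none = none := by
      rw [Perm.inv_eq_iff_eq]
      exact hfix.symm
    rw [hμ, Perm.mul_apply, Perm.mul_apply, h1, hμ]
  have h2dvd : 2 ∣ Nat.card M := by
    rw [hMc]
    obtain ⟨j, hj⟩ := hp.odd_of_ne_two hp2
    omega
  have : Fact (Nat.Prime 2) := ⟨Nat.prime_two⟩
  obtain ⟨m₀, hm₀⟩ := exists_prime_orderOf_dvd_card' (G := M) 2 h2dvd
  have hm₀1 : (m₀ : Perm (Option (ZMod p))) ≠ 1 := by
    intro h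
    have h1 : m₀ = 1 := Subtype.ext h
    rw [h1, orderOf_one] at hm₀
    omega
  have hm₀sq : (m₀ : Perm (Option (ZMod p))) * m₀ = 1 := by
    have h1 : m₀ ^ 2 = 1 := by
      rw [← hm₀]
      exact pow_orderOf_eq_one m₀
    have h2 : ((m₀ ^ 2 : M) : Perm (Option (ZMod p))) = 1 := by
      rw [h1]
      rfl
    rw [← h2, pow_two]
    rfl
  have hx₀ : (m₀ : Perm (Option (ZMod p))) none ≠ none := fun h => hm₀1 (hMreg _ m₀.2 h)
  obtain ⟨i₀, hi₀⟩ := Option.ne_none_iff_exists'.1 hx₀
  have hμ0 : μ none = 1 := (hμeq 1 M.one_mem).symm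
  have hsq : ∀ x, μ x * μ x = 1 := by
    intro x
    cases x with
    | none => rw [hμ0, one_mul]
    | some i =>
      have h1 : (some i : Option (ZMod p)) = Tr (i - i₀) (some i₀) := by
        rw [Tr_some]
        congr 1
        ring
      have h2 : μ (some i₀) = m₀ := by
        rw [← hi₀]
        exact (hμeq _ m₀.2).symm
      rw [h1, hconj _ (hH.Tr_mem _) (Tr_none _), h2]
      calc Tr (i - i₀) * ↑m₀ * (Tr (i - i₀))⁻¹ * (Tr (i - i₀) * ↑m₀ * (Tr (i - i₀))⁻¹)
          = Tr (i - i₀) * (↑m₀ * ↑m₀) * (Tr (i - i₀))⁻¹ := by group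
        _ = 1 := by rw [hm₀sq]; group
  refine ⟨⟨μ, hμ, hμ0, ?_, hsq, ?_⟩, hμM, hμeq, hconj⟩
  · intro x y
    apply huniq _ (hμM _) _ (M.mul_mem (hμM x) (hμM y))
    rw [hμ, Perm.mul_apply, hμ]
  · intro i x
    exact hconj _ (hH.Tr_mem i) (Tr_none i) x

theorem exists_q (M : Subgroup (Perm (Option (ZMod p)))) (hMc : Nat.card M = p + 1)
    (hsq : ∀ m ∈ M, m * m = 1) : ∃ q, q.Prime ∧ p + 1 = 2 ^ q := by
  have hp : p.Prime := Fact.out
  have : Fact (Nat.Prime 2) := ⟨Nat.prime_two⟩
  have hP : IsPGroup 2 M := by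
    intro m
    refine ⟨1, ?_⟩
    apply Subtype.ext
    rw [pow_one, pow_two]
    exact hsq m.1 m.2
  obtain ⟨q, hq⟩ := IsPGroup.iff_card.mp hP
  rw [hMc] at hq
  have hq1 : q ≠ 1 := by
    rintro rfl
    have := hp.two_le
    omega
  have hP2 : (2 ^ q - 1).Prime := by
    rw [← hq]
    simpa using hp
  exact ⟨q, (Nat.prime_of_pow_sub_one_prime hq1 hP2).2, hq⟩

/-- the ring automorphism `x ↦ k x`. -/
noncomputable def phi (D : AData p) (k : (ZMod p)ˣ)
    (hk : ∀ x, D.μ (Aff k 0 x) = Aff k 0 * D.μ x * (Aff k 0)⁻¹) : FX D ≃+* FX D :=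
  { toEquiv := (Aff k 0 : Perm (Option (ZMod p)))
    map_mul' := by
      have key : ∀ x y : Option (ZMod p), Aff k 0 (omul x y) = omul (Aff k 0 x) (Aff k 0 y) := by
        intro x y
        cases x <;> cases y <;> simp [omul, mul_add]
      exact key
    map_add' := by
      have key : ∀ x y : Option (ZMod p), Aff k 0 (D.μ x y) = D.μ (Aff k 0 x) (Aff k 0 y) := by
        intro x y
        rw [hk, Perm.mul_apply, Perm.mul_apply, pinv_apply]
      exact key }

theorem phi_apply (D : AData p) (k : (ZMod p)ˣ)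
    (hk : ∀ x, D.μ (Aff k 0 x) = Aff k 0 * D.μ x * (Aff k 0)⁻¹) (x : Option (ZMod p)) :
    phi D k hk x = Aff k 0 x := rfl

theorem card_ringAut_of_equiv {F : Type*} [Field F] (q : ℕ) (hq : q ≠ 0)
    (ρ : F ≃+* GaloisField 2 q) : Nat.card (RingAut F) = q := by
  have e : RingAut F ≃ (GaloisField 2 q ≃ₐ[ZMod 2] GaloisField 2 q) :=
    { toFun := fun σ => AlgEquiv.ofRingEquiv (f := ρ.symm.trans (σ.trans ρ)) (fun x =>
          RingHom.congr_fun (Subsingleton.elim
            ((ρ.symm.trans (σ.trans ρ)).toRingHom.comp (algebraMap (ZMod 2) (GaloisField 2 q)))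
            (algebraMap (ZMod 2) (GaloisField 2 q))) x)
      invFun := fun τ => ρ.trans (τ.toRingEquiv.trans ρ.symm)
      left_inv := fun σ => by
        ext x
        show ρ.symm (ρ (σ (ρ.symm (ρ x)))) = σ x
        simp
      right_inv := fun τ => by
        ext x
        show ρ (ρ.symm (τ (ρ (ρ.symm x)))) = τ x
        simp }
  rw [Nat.card_congr e, IsGalois.card_aut_eq_finrank, GaloisField.finrank 2 hq]

end main

/-- the identity map `Option (ZMod p) ≃ FX D`. -/
def fxEquiv {p : ℕ} (D : AData p) : Option (ZMod p) ≃ FX D := Equiv.refl _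

theorem fx_some_ne_zero {p : ℕ} (D : AData p) (c : ZMod p) : fxEquiv D (some c) ≠ 0 := by
  have h : (some c : Option (ZMod p)) ≠ none := by simp
  exact h

/-- **Part (E)**: a regular normal subgroup forces the semi-affine structure over `GF(2^q)`. -/
theorem zgood_affine {p d : ℕ} [Fact p.Prime] {H : Subgroup (Equiv.Perm (Option (ZMod p)))}
    (hH : ZGood p d H) (hp2 : p ≠ 2) (M : Subgroup (Equiv.Perm (Option (ZMod p)))) (hM : M ≤ H)
    (hMn : ∀ h ∈ H, ∀ m ∈ M, h * m * h⁻¹ ∈ M) (hMc : Nat.card M = p + 1)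
    (hMreg : ∀ m ∈ M, m none = none → m = 1) :
    ∃ q, q.Prime ∧ p + 1 = 2 ^ q ∧ (d = 1 ∨ d = q) ∧
      ∃ e : Option (ZMod p) ≃ GaloisField 2 q,
        ∀ h ∈ H, e.symm.trans (h.trans e) ∈ Cfsg.semiaffineGroup (GaloisField 2 q) := by
  classical
  obtain ⟨D, hDM, hDeq, hDconj⟩ := exists_data hH hp2 M hMn hMc hMreg
  have hsq : ∀ m ∈ M, m * m = 1 := by
    intro m hm
    rw [hDeq m hm]
    exact D.μ_sq _
  obtain ⟨q, hq, hpq⟩ := exists_q M hMc hsq
  let _ : Fintype (GaloisField 2 q) := Fintype.ofFinite _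
  have hcard : Fintype.card (FX D) = Fintype.card (GaloisField 2 q) := by
    rw [card_FX, hpq, ← Nat.card_eq_fintype_card, GaloisField.card 2 q hq.ne_zero]
  obtain ⟨ρ⟩ : Nonempty (FX D ≃+* GaloisField 2 q) := ⟨FiniteField.ringEquivOfCardEq hcard⟩
  refine ⟨q, hq, hpq, ?_, ?_⟩
  · have hdq : d ∣ q := by
      rw [← hH.card_K]
      let f : K H →* RingAut (FX D) := MonoidHom.mk'
        (fun k => phi D k.1 (hDconj _ (hH.Aff_mem k.2 0) (Aff_none _ 0))) (by
          intro k k'
          apply RingEquiv.ext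
          have key : ∀ x : Option (ZMod p), (Aff (k.1 * k'.1) 0 : Perm (Option (ZMod p))) x =
              (Aff k.1 0 : Perm (Option (ZMod p))) ((Aff k'.1 0 : Perm (Option (ZMod p))) x) := by
            intro x
            rw [← Perm.mul_apply, Aff_mul, mul_zero, add_zero]
          exact key)
      have hf : Function.Injective f := by
        intro k k' hkk
        have h1 : (f k) (fxEquiv D (some 1)) = (f k') (fxEquiv D (some 1)) := by
          rw [hkk]
        have h2 : (Aff k.1 0 : Perm (Option (ZMod p))) (some 1) =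
            (Aff k'.1 0 : Perm (Option (ZMod p))) (some 1) := h1
        simp only [Aff_some, mul_one, add_zero, Option.some.injEq] at h2
        exact Subtype.ext (Units.ext h2)
      have h3 := Subgroup.card_dvd_of_injective f hf
      rwa [card_ringAut_of_equiv q hq.ne_zero ρ] at h3
    rcases (Nat.dvd_prime hq).mp hdq with h | h
    · exact Or.inl h
    · exact Or.inr h
  · refine ⟨(fxEquiv D).trans ρ.toEquiv, ?_⟩
    intro h hh
    have hmH : D.μ (h none) ∈ H := hM (hDM (h none))
    have hfix : ((D.μ (h none))⁻¹ * h) none = none := by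
      rw [Perm.mul_apply, Perm.inv_eq_iff_eq, D.μ_none]
    obtain ⟨k, c, hk, hkc⟩ := hH.affine' (H.mul_mem (H.inv_mem hmH) hh) hfix
    have hh' : h = D.μ (h none) * Aff k c := by
      rw [← hkc]
      group
    have hkconj := hDconj _ (hH.Aff_mem hk 0) (Aff_none k 0)
    have hcomm : ∀ u v : Option (ZMod p), D.μ u v = D.μ v u := fun u v =>
      add_comm (fxEquiv D u) (fxEquiv D v)
    have key : ∀ x : Option (ZMod p), h x = D.μ (omul (some c) (Aff k 0 x)) (h none) := by
      intro x
      have h1 : h x = D.μ (h none) (Aff k c x) := by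
        conv_lhs => rw [hh']
        rw [Perm.mul_apply]
      rw [h1, hcomm]
      congr 2
      cases x <;> simp [omul, add_comm]
    have hform : ∀ y : Option (ZMod p), fxEquiv D (h y) =
        fxEquiv D (some c) * (phi D k hkconj (fxEquiv D y)) + fxEquiv D (h none) := key
    have hc0 : ρ (fxEquiv D (some c)) ≠ 0 :=
      (map_ne_zero_iff ρ ρ.injective).mpr (fx_some_ne_zero D c)
    refine ⟨Units.mk0 _ hc0, ρ (fxEquiv D (h none)),
      ρ.symm.trans ((phi D k hkconj).trans ρ), ?_⟩
    intro x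
    show ρ (fxEquiv D (h ((fxEquiv D).symm (ρ.symm x)))) =
      ρ (fxEquiv D (some c)) * ρ (phi D k hkconj (ρ.symm x)) + ρ (fxEquiv D (h none))
    rw [hform, map_add, map_mul]
    rfl

end Cfsg.Agent.Lib.Helper64.ZGAffine
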